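import Cfsg.Agent.H8.Bs0

/-! Piece M of S4372: `Main` from the primitive case `Prim` and the three-colouring `Gluck3`; module form `mod2`. -/

set_option autoImplicit false

namespace H27.BsM
open Subgroup Cfsg H18 H1 H21.Rb H8.Bs
open scoped commutatorElement

universe u

def IH2 (n : ℕ) : Prop :=
  ∀ (G : Type u) [Group G] [Finite G] (V A : Subgroup G), Nat.card V < n → T2 V A

section
variable {G : Type u} [Group G] [Finite G] {V A U H : Subgroup G}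

/-- `p` pairwise non-conjugate regular pairs -/
theorem many {p : ℕ} (hp : p.Prime) (hE : Elem p U) (h0 : U ≠ ⊥) (hd : ¬ p ∣ Nat.card H) {v w : G}
    (h : Reg U H v w) : ∃ q : ℕ → G × G, (∀ k, Reg U H (q k).1 (q k).2) ∧ ∀ k l, k < p → l < p → ∀ a ∈ H,
      a * (q k).1 * a⁻¹ = (q l).1 → a * (q k).2 * a⁻¹ = (q l).2 → k = l := by
  obtain ⟨v, w, h, v1⟩ : ∃ v w, Reg U H v w ∧ v ≠ 1 := by
    by_cases e : v = 1
    · by_cases e' : w = 1
      · obtain ⟨u, hu, u1⟩ := exists_mem_ne_one' h0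
        exact ⟨u, 1, ⟨hu, one_mem _, fun a ha _ _ => h.2.2 a ha (by simp [e]) (by simp [e'])⟩, u1⟩
      · exact ⟨w, v, ⟨h.2.1, h.1, fun a ha h1 h2 => h.2.2 a ha h2 h1⟩, e'⟩
    · exact ⟨v, w, h, e⟩
  refine ⟨fun k => (v, w * v ^ k), fun k => ⟨h.1, mul_mem h.2.1 (pow_mem h.1 k), fun a ha h1 h2 =>
    h.2.2 a ha h1 ?_⟩, fun k l hk hl a ha h1 h2 => ?_⟩
  · simp only at h1 h2
    calc a * w * a⁻¹ = a * (w * v ^ k) * a⁻¹ * ((a * v * a⁻¹) ^ k)⁻¹ := by rw [conj_pow]; group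
      _ = w := by rw [h1, h2]; group
  · simp only at h1 h2
    set d := v ^ l * (v ^ k)⁻¹ with hd'
    have dU : d ∈ U := mul_mem (pow_mem h.1 l) (inv_mem (pow_mem h.1 k))
    have e1 : a * w * a⁻¹ = w * d := by
      calc a * w * a⁻¹ = a * (w * v ^ k) * a⁻¹ * ((a * v * a⁻¹) ^ k)⁻¹ := by rw [conj_pow]; group
        _ = w * d := by rw [h1, h2, hd']; group
    have e2 : a * d * a⁻¹ = d := by
      calc a * d * a⁻¹ = (a * v * a⁻¹) ^ l * ((a * v * a⁻¹) ^ k)⁻¹ := by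
            rw [conj_pow, conj_pow, hd']; group
        _ = d := by rw [h1]
    have e3 : ∀ n : ℕ, a ^ n * w * (a ^ n)⁻¹ = w * d ^ n ∧ a ^ n * v * (a ^ n)⁻¹ = v := fun n => by
      induction n with
      | zero => simp
      | succ n ih =>
        constructor
        · calc a ^ (n + 1) * w * (a ^ (n + 1))⁻¹ = a * (a ^ n * w * (a ^ n)⁻¹) * a⁻¹ := by
                rw [pow_succ']; group
            _ = (a * w * a⁻¹) * (a * d * a⁻¹) ^ n := by rw [ih.1, conj_pow]; group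
            _ = w * d ^ (n + 1) := by rw [e1, e2, pow_succ', mul_assoc]
        · calc a ^ (n + 1) * v * (a ^ (n + 1))⁻¹ = a * (a ^ n * v * (a ^ n)⁻¹) * a⁻¹ := by
                rw [pow_succ']; group
            _ = v := by rw [ih.2, h1]
    have c1 : a ^ p ∈ C(U) := h.2.2 _ (pow_mem ha p) (e3 p).2 (by rw [(e3 p).1, hE.pow d dU, mul_one])
    have g1 : p.gcd (orderOf a) = 1 :=
      (Nat.Prime.coprime_iff_not_dvd hp).2 fun e => hd (e.trans (orderOf_dvd_card ha))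
    have c2 : a ∈ C(U) := zpowers_le.2 c1 (mem_zpowers_pow_iff.2 g1)
    rw [conj_of_C c2 h.2.1, left_eq_mul, hd', mul_inv_eq_one] at e1
    have ho := hE.orderOf hp h.1 v1
    exact (pow_injOn_Iio_orderOf (by rwa [Set.mem_Iio, ho]) (by rwa [Set.mem_Iio, ho]) e1).symm

theorem minU (hV : Abel V) (hm : MinNorm V A) (hH : H ⋖ A) (hU : U ≤ V) (h0 : U ≠ ⊥) (hn : H ≤ N(U))
    (hd : U ⊓ ⨆ a : {a : G // a ∈ A ∧ a ∉ H}, cj a.1 U = ⊥) : MinNorm U H ∧ U < V := by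
  set R := ⨆ a : {a : G // a ∈ A ∧ a ∉ H}, cj a.1 U with hR
  have RV : R ≤ V := iSup_le fun a => cj_le_of_mem_N hU (hm.norm a.2.1)
  have leR : ∀ a ∈ A, a ∉ H → cj a U ≤ R := fun a h1 h2 =>
    le_iSup (fun a : {a : G // a ∈ A ∧ a ∉ H} => cj a.1 U) ⟨a, h1, h2⟩
  refine ⟨⟨h0, hn, fun X h1 h2 h3 => ?_⟩, lt_of_le_of_ne hU fun e => ?_⟩
  · have : V ≤ X ⊔ R := by
      rw [← span_cj hm (h1.trans hU) h2]
      refine iSup_le fun a => ?_
      by_cases e : (a : G) ∈ H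
      · rw [cj_eq_self (h3 e)]; exact le_sup_left
      · exact ((cj_mono h1).trans (leR a a.2 e)).trans le_sup_right
    have n2 : Nrm2 X R := Or.inl ((h1.trans hU).trans (hV.norm RV))
    have e := n2.modular h1
    rw [inf_eq_right.2 (hU.trans this), inf_comm, hd, sup_bot_eq] at e
    exact e.symm
  · obtain ⟨a, ha, aH⟩ := SetLike.exists_of_lt hH.lt
    have := leR a ha aH
    rw [e, cj_eq_self (hm.norm ha)] at this
    exact h0 (eq_bot_iff.2 (hd ▸ le_inf le_rfl (hU.trans this)))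

theorem glue (hV : Abel V) (hm : MinNorm V A) (hH : H ⋖ A) (hU : U ≤ V) (h0 : U ≠ ⊥) (hn : H ≤ N(U))
    (hd : U ⊓ ⨆ a : {a : G // a ∈ A ∧ a ∉ H}, cj a.1 U = ⊥) {κ : Type*} (q : κ → G × G)
    (r : ∀ k, Reg U H (q k).1 (q k).2)
    (nc : ∀ k l, ∀ a ∈ H, a * (q k).1 * a⁻¹ = (q l).1 → a * (q k).2 * a⁻¹ = (q l).2 → k = l)
    (c : A ⧸ H.subgroupOf A → κ)
    (hD : ∀ t : A, (∀ ω, c (t • ω) = c ω) → ∀ ω : A ⧸ H.subgroupOf A, t • ω = ω) : ∃ v w, Reg V A v w := by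
  classical
  have leR : ∀ a ∈ A, a ∉ H → cj a U ≤ ⨆ a : {a : G // a ∈ A ∧ a ∉ H}, cj a.1 U := fun a h1 h2 =>
    le_iSup (fun a : {a : G // a ∈ A ∧ a ∉ H} => cj a.1 U) ⟨a, h1, h2⟩
  let ι := A ⧸ H.subgroupOf A
  haveI : Fintype ι := Fintype.ofFinite _
  let o : ι → G := fun ω => ((Quotient.out ω : A) : G)
  have oA : ∀ ω, o ω ∈ A := fun ω => (Quotient.out ω : A).2
  let f : ι → Subgroup G := fun ω => cj (o ω) U
  have fV : ∀ ω, f ω ≤ V := fun ω => cj_le_of_mem_N hU (hm.norm (oA ω))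
  have ind : ∀ i (s : Finset ι), i ∉ s → f i ⊓ s.sup f = ⊥ := fun i s hi => by
    rw [← cj_eq_bot (g := (o i)⁻¹), cj_inf, eq_bot_iff, ← hd]
    refine inf_le_inf (by simp [f]) ?_
    rw [cj_le_iff]
    refine Finset.sup_le fun j hj => ?_
    rw [← cj_le_iff, cj_cj]
    refine leR _ (mul_mem (inv_mem (oA i)) (oA j)) fun e => hi ?_
    have : i = j := by
      rw [← i.out_eq', ← j.out_eq']
      exact QuotientGroup.eq.2 e
    exact this ▸ hj
  have hh : ∀ (t : A) (ω : ι), (o (t • ω))⁻¹ * t * o ω ∈ H := fun t ω => by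
    have : ((t • ω).out : A)⁻¹ * (t * ω.out) ∈ H.subgroupOf A :=
      QuotientGroup.eq.1 ((QuotientGroup.out_eq' _).trans (MulAction.Quotient.mk_smul_out _ t ω).symm)
    rw [mul_assoc]; exact this
  have key : ∀ s : G × G → G, (∀ k, s (q k) ∈ U) → ∃ y ∈ V, ∀ a (ha : a ∈ A), a * y * a⁻¹ = y → ∀ ω,
      ((o ((⟨a, ha⟩ : A) • ω))⁻¹ * a * o ω) * s (q (c ω)) * ((o ((⟨a, ha⟩ : A) • ω))⁻¹ * a * o ω)⁻¹ =
        s (q (c ((⟨a, ha⟩ : A) • ω))) := fun s hs => by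
    obtain ⟨y, yV, hy⟩ := exists_prod hV fV ind (fun ω => o ω * s (q (c ω)) * (o ω)⁻¹)
      fun ω => conj_mem_cj (hs _)
    refine ⟨y, yV, fun a ha e ω => ?_⟩
    have := hy a (hm.norm ha) (MulAction.toPerm (⟨a, ha⟩ : A)) (fun ω => by
      simp only [f, MulAction.toPerm_apply]
      rw [cj_cj, le_cj_iff, cj_cj, ← mul_assoc, cj_eq_self (hn (hh ⟨a, ha⟩ ω))]) e ω
    simp only [MulAction.toPerm_apply] at this
    calc _ = (o ((⟨a, ha⟩ : A) • ω))⁻¹ * (a * (o ω * s (q (c ω)) * (o ω)⁻¹) * a⁻¹) *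
          o ((⟨a, ha⟩ : A) • ω) := by group
      _ = _ := by rw [this]; group
  obtain ⟨y1, y1V, hy1⟩ := key Prod.fst fun k => (r k).1
  obtain ⟨y2, y2V, hy2⟩ := key Prod.snd fun k => (r k).2.1
  refine ⟨y1, y2, y1V, y2V, fun a ha e1 e2 => ?_⟩
  have k1 := hy1 a ha e1
  have k2 := hy2 a ha e2
  have fx := hD ⟨a, ha⟩ fun ω => (nc _ _ _ (hh ⟨a, ha⟩ ω) (k1 ω) (k2 ω)).symm
  have cf : ∀ ω, a ∈ C(f ω) := fun ω => by
    have h1 := hh ⟨a, ha⟩ ω
    have h2 := k1 ω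
    have h3 := k2 ω
    rw [fx] at h1 h2 h3
    simp only [f]
    rw [← cj_C, mem_cj]
    exact (r _).2.2 _ h1 h2 h3
  rw [← span_cj hm hU h0]
  refine zpowers_le.1 (cent_iSup fun g => zpowers_le.2 ?_)
  obtain ⟨h, e⟩ := QuotientGroup.mk_out_eq_mul (H.subgroupOf A) g
  have := cf (QuotientGroup.mk g)
  simp only [f, o] at this
  rwa [e, coe_mul, cj_mul, cj_eq_self (g := ((h : A) : G)) (hn h.2)] at this

end

section
variable {G : Type u} [Group G] [Finite G] {V A U H : Subgroup G}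

theorem red2 (ih : IH2.{u} (Nat.card V)) (h : ¬ MinNorm V A) : T2 V A := fun hV hn ho cp hc => by
  by_cases h0 : V = ⊥
  · exact ⟨1, 1, one_mem _, one_mem _, fun a _ _ _ => by simp [h0]⟩
  obtain ⟨U, UV, hU⟩ := exists_minNorm h0 hn
  obtain ⟨W, h1, h2, h3, h4⟩ := hc U UV hU.norm
  have l1 : U < V := lt_of_le_of_ne UV fun e => h (e ▸ hU)
  have l2 : W < V := lt_of_le_of_ne h1 fun e => hU.ne_bot (by rw [← h3, e, inf_eq_left.2 UV])
  obtain ⟨v, w, r1⟩ := ih G U A (card_lt l1) (hV.mono UV) hU.norm ho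
    (cp.coprime_dvd_right (card_dvd_of_le UV)) (hc.sub hV UV hU.norm)
  obtain ⟨v', w', r2⟩ := ih G W A (card_lt l2) (hV.mono h1) h2 ho
    (cp.coprime_dvd_right (card_dvd_of_le h1)) (hc.sub hV h1 h2)
  exact ⟨_, _, h4 ▸ Reg.mul (h4 ▸ hV) hU.norm h2 h3 r1 r2⟩

theorem imprim2 (hG : Gluck3.{u}) (ih : IH2.{u} (Nat.card V)) (hV : Abel V) (hm : MinNorm V A) (ho : Solv A)
    (cp : (Nat.card A).Coprime (Nat.card V)) (od : Odd (Nat.card V))
    (hH : H ⋖ A) (hU : U ≤ V) (h0 : U ≠ ⊥) (hn : H ≤ N(U))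
    (hd : U ⊓ ⨆ a : {a : G // a ∈ A ∧ a ∉ H}, cj a.1 U = ⊥) : ∃ v w, Reg V A v w := by
  have HA : H ≤ A := hH.le
  obtain ⟨mU, lt⟩ := minU hV hm hH hU h0 hn hd
  obtain ⟨v, w, r⟩ := ih G U H (card_lt lt) (hV.mono hU) hn (ho.of_le HA)
    ((cp.coprime_dvd_right (card_dvd_of_le hU)).coprime_dvd_left (card_dvd_of_le HA)) (CR.of_min mU)
  obtain ⟨p, hp, pU, hE⟩ := mU.exists_elem (hV.mono hU).solv
  have pV : p ∣ Nat.card V := pU.trans (card_dvd_of_le hU)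
  have pA : ¬ p ∣ Nat.card A := fun e => hp.one_lt.ne' (Nat.eq_one_of_dvd_coprimes cp e pV)
  obtain ⟨q, r, nc⟩ := many hp hE h0 (fun e => pA (e.trans (card_dvd_of_le HA))) r
  have co : IsCoatom (H.subgroupOf A) :=
    coatom_iff_covBy.2 (by rwa [subgroupOf_map_subtype, inf_eq_left.2 HA])
  by_cases p3 : p = 3
  · subst p3
    obtain ⟨c, hD⟩ := hG A _ ho co pA
    exact glue hV hm hH hU h0 hn hd (fun k : Fin 3 => q k) (fun k => r k)
      (fun k l a ha e1 e2 => Fin.ext (nc k l k.2 l.2 a ha e1 e2)) c hD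
  · have p2 : p ≠ 2 := fun e => by
      subst e
      exact (Nat.not_even_iff_odd.2 od) (even_iff_two_dvd.2 pV)
    have p5 : 5 ≤ p := by
      have := hp.two_le
      have p4 : p ≠ 4 := fun e => by subst e; exact absurd hp (by decide)
      omega
    obtain ⟨c, hD⟩ := gluck5 ho co
    exact glue hV hm hH hU h0 hn hd (fun k : Fin 5 => q k) (fun k => r k)
      (fun k l a ha e1 e2 => Fin.ext (nc k l (k.2.trans_le p5) (l.2.trans_le p5) a ha e1 e2)) c hD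

theorem faithful2 (hP : Prim.{u}) (hG : Gluck3.{u}) (ih : IH2.{u} (Nat.card V)) (hf : A ⊓ C(V) = ⊥) :
    T2 V A := by
  by_cases hm : MinNorm V A
  · intro hV hn ho cp hc
    rcases Nat.even_or_odd (Nat.card V) with ev | od
    · refine H21.Rb.main V A hV hn ?_ hc
      exact Nat.coprime_two_right.1 (cp.coprime_dvd_right (even_iff_two_dvd.1 ev))
    by_cases h : ∀ M, M ⊴ A → Abel M → Cyc M
    · exact hP G V A hV hm ho hf cp od h
    · push Not at h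
      obtain ⟨M, h1, h2, h3⟩ := h
      obtain ⟨H, U, k1, k2, k3, k4, k5⟩ := blocks_of_noncyc hV hm hf h1 h2 h3
      exact imprim2 hG ih hV hm ho cp od k1 k2 k3 k4 k5
  · exact red2 ih hm

end

theorem mod_of_amb2 {V A : Type*} [Group V] [Group A] {φ : A →* MulAut V} (h : T2 (hl φ ⊤) (hr φ ⊤))
    (hV : ∀ x y : V, x * y = y * x) (ho : Group.IsSolvable A) (cp : (Nat.card A).Coprime (Nat.card V))
    (hc : ∀ U : Subgroup V, (∀ a, ∀ x ∈ U, φ a x ∈ U) → ∃ W : Subgroup V, (∀ a, ∀ x ∈ W, φ a x ∈ W) ∧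
      U ⊓ W = ⊥ ∧ U ⊔ W = ⊤) : ∃ v w : V, ∀ a, φ a v = v → φ a w = w → ∀ x, φ a x = x := by
  obtain ⟨v, w, hv, hw, r⟩ := h (abel_hl.2 (cent_iff.2 fun a _ b _ => hV a b)) hr_norm_top
    (solv_hr.2 solv_of_solv) (by simpa using cp) fun U hU hn => by
      obtain ⟨U, -, rfl⟩ := exists_hl hU
      obtain ⟨W, h1, h2, h3⟩ := hc U fun a => hr_norm_iff.1 hn a (mem_top a)
      exact ⟨hl φ W, hl_le_hl.2 le_top, hr_norm_iff.2 fun a _ => h1 a, by rw [← hl_inf, h2, hl_bot],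
        by rw [← hl_sup, h3]⟩
  obtain ⟨v, -, rfl⟩ := mem_hl.1 hv
  obtain ⟨w, -, rfl⟩ := mem_hl.1 hw
  refine ⟨v, w, fun a h1 h2 x => ?_⟩
  have := r _ (inr_mem_hr.2 (mem_top a)) (by rw [inr_conj_inl, h1]) (by rw [inr_conj_inl, h2])
  have := conj_of_C this (inl_mem_hl.2 (mem_top x))
  rw [inr_conj_inl] at this
  exact SemidirectProduct.inl_injective this

theorem ih2_all (hP : Prim.{u}) (hG : Gluck3.{u}) (n : ℕ) : IH2.{u} n := by
  induction n with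
  | zero => intro G _ _ V A h; omega
  | succ n ih =>
    intro G _ _ V A hlt hV hn ho cp hc
    haveI : Finite (MulAut V) := Finite.of_injective _ (DFunLike.coe_injective (F := MulAut V))
    let φ := (mim (actf V) A).subtype
    have cV : Nat.card (hl φ ⊤) = Nat.card V := by simp
    obtain ⟨v, w, r⟩ := mod_of_amb2 (φ := φ) (faithful2 hP hG (fun G _ _ V A h => ih G V A (by omega)) (by
        refine eq_bot_iff.2 fun t ht => ?_
        obtain ⟨a, -, rfl⟩ := mem_hr.1 ht.1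
        have : a = 1 := Subtype.ext (MulEquiv.ext fun x => by
          have := conj_of_C ht.2 (inl_mem_hl.2 (mem_top x))
          rw [inr_conj_inl] at this
          exact SemidirectProduct.inl_injective this)
        rw [this, map_one]; exact one_mem _))
      (fun x y => Subtype.ext (comm_of_cent hV x.2 y.2)) ho.mim (cp.coprime_dvd_left card_mim_dvd) fun U hU => by
        obtain ⟨W, h1, h2, h3, h4⟩ := hc (U.map V.subtype) (map_subtype_le _)
          (norm_map_subtype_of_actf hn fun a ha => hU ⟨_, mfun_mem_mim ha⟩)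
        refine ⟨W.subgroupOf V, ?_, ?_, ?_⟩
        · rintro ⟨_, ht⟩ x hx
          obtain ⟨a, ha, -, rfl⟩ := mem_mim.1 ht
          exact mem_subgroupOf.2 (actf_apply (hn ha) x ▸ conj_mem h2 ha hx)
        · refine eq_bot_iff.2 fun x hx => Subtype.ext (eq_one_of_eq_bot h3 ⟨mem_map_of_mem _ hx.1, hx.2⟩)
        · apply map_injective V.subtype_injective
          rw [Subgroup.map_sup, subgroupOf_map_subtype, inf_eq_left.2 h1, h4, ← MonoidHom.range_eq_map,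
            range_subtype]
    refine ⟨v, w, v.2, w.2, fun a ha h1 h2 => C_of_conj fun x hx => ?_⟩
    have := r ⟨_, mfun_mem_mim ha⟩ (Subtype.ext ((actf_apply (hn ha) v).trans h1))
      (Subtype.ext ((actf_apply (hn ha) w).trans h2)) ⟨x, hx⟩
    exact (actf_apply (hn ha) ⟨x, hx⟩).symm.trans (congrArg Subtype.val this)

theorem main (hP : Prim.{u}) (hG : Gluck3.{u}) : Main.{u} := fun G _ _ V A =>
  ih2_all hP hG _ G V A (Nat.lt_succ_self _)

theorem mod2 (h : Main.{u}) {V A : Type u} [Group V] [Group A] [Finite V] [Finite A] (φ : A →* MulAut V)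
    (hV : ∀ x y : V, x * y = y * x) (ho : Group.IsSolvable A) (cp : (Nat.card A).Coprime (Nat.card V))
    (hc : ∀ U : Subgroup V, (∀ a, ∀ x ∈ U, φ a x ∈ U) → ∃ W : Subgroup V, (∀ a, ∀ x ∈ W, φ a x ∈ W) ∧
      U ⊓ W = ⊥ ∧ U ⊔ W = ⊤) : ∃ v w : V, ∀ a, φ a v = v → φ a w = w → ∀ x, φ a x = x :=
  mod_of_amb2 (h _ _ _) hV ho cp hc

end H27.BsM
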