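import Cfsg.Agent.H4.Quad

/-! Linear algebra for the `F(p)` theorem: `quad_borel` (two quadratic elements: a Borel subgroup of `SL₂(p)` acting
on a natural module and fixing a nonzero space of fixed points of the first element), `ml0`, `ml` (the same inside
the unique maximal subgroup over `⟨a⟩ O_p`, with an eigenvalue that is a primitive root). -/

namespace H27

open Subgroup H26 H4 Matrix Cfsg TensorProduct
open scoped MatrixGroups commutatorElement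

variable {p : ℕ}

theorem tvU_one (p : ℕ) [Fact p.Prime] : (tvU (1 : ZMod p)) 0 0 = 1 ∧ (tvU (1 : ZMod p)) 0 1 = 1 ∧
    (tvU (1 : ZMod p)) 1 0 = 0 ∧ (tvU (1 : ZMod p)) 1 1 = 1 := by
  simp [tvU, SpecialLinearGroup.transvection, Matrix.transvection]

theorem quad_borel [hp : Fact p.Prime] (hp2 : p ≠ 2) {M : Type*} [AddCommGroup M] [Module (ZMod p) M]
    {Γ : Type*} [Group Γ] [Finite Γ] (ρ : Γ →* Module.End (ZMod p) M) {a b : Γ}
    (ha : (ρ a - 1) * (ρ a - 1) = 0) (hb : (ρ b - 1) * (ρ b - 1) = 0)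
    (hn : ¬ ∀ h ∈ closure ({a, b} : Set Γ), ∃ k, ρ (h ^ p ^ k) = 1) :
    ∃ (N Λ : Submodule (ZMod p) M) (j : (Fin 2 → ZMod p) →ₗ[ZMod p] M), Function.Injective j ∧
      (∀ g ∈ closure ({a, b} : Set Γ), ∀ v ∈ N, ρ g v ∈ N) ∧ Λ ≤ N ∧ Λ ≠ ⊥ ∧ (∀ v ∈ Λ, ρ a v = v) ∧
      ∀ β : SL(2, ZMod p), β 1 0 = 0 → ∃ m ∈ closure ({a, b} : Set Γ), (∀ v, ρ m (j v) = j (β • v)) ∧
        (∀ v ∈ Λ, ρ m v ∈ Λ) ∧ (∀ v ∈ N, ρ m (ρ m v) + v = (β 0 0 + β 1 1) • ρ m v) ∧
        (β = -1 → ∀ v ∈ N, ρ m v = -v) := by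
  classical
  obtain ⟨e, he⟩ := exists_pow_coprime (p := p) (isOfFinOrder_of_finite (a * b))
  set k := orderOf ((a * b) ^ p ^ e) with hk
  have hk0 : k.totient ≠ 0 := (Nat.totient_pos.2 (orderOf_pos _)).ne'
  let K := GaloisField p k.totient
  let _ : Fintype K := Fintype.ofFinite K
  have hK : k ∣ Fintype.card K - 1 := by
    rw [← Nat.card_eq_fintype_card, GaloisField.card p _ hk0]
    exact (Nat.modEq_iff_dvd' (Nat.one_le_pow _ _ hp.out.pos)).1 (Nat.ModEq.pow_totient he.symm).symm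
  let B := Module.End.baseChangeHom (ZMod p) K M
  let ρ' : Γ →* Module.End K (K ⊗[ZMod p] M) := (B : Module.End (ZMod p) M →* _).comp ρ
  have hq : ∀ x : Γ, (ρ x - 1) * (ρ x - 1) = 0 → (ρ' x - 1) * (ρ' x - 1) = 0 := fun x hx => by
    have := congrArg B hx
    rwa [map_mul, map_sub, map_one, map_zero] at this
  have hinj : ∀ x : Γ, ρ' x = 1 → ρ x = 1 := fun x hx => LinearMap.ext fun m =>
    Module.Flat.tensorProduct_mk_injective (ZMod p) M K (LinearMap.congr_fun hx (1 ⊗ₜ m))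
  obtain ⟨ι, hι, φ, hφ, hnp⟩ := exists_hom_SL2 (p := p) ρ' (hq a ha) (hq b hb) (e := e)
    (by rw [← map_pow, pow_mul, orderOf_dvd_iff_pow_eq_one.1 hK, map_one])
    (fun h => hn fun x hx => (h x hx).imp fun k hk => hinj _ hk)
  have : Finite φ.range := Finite.of_surjective _ φ.rangeRestrict_surjective
  have hpp : ∀ g : closure ({a, b} : Set Γ), (g : Γ) = a ∨ (g : Γ) = b → φ g ^ p ^ 1 = 1 := fun g hg => by
    refine eq_of_smul_eq_smul (α := Fin 2 → K) fun v => hι ?_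
    have h1 : ρ' g ^ p = 1 := pow_eq_one_of_quad (by
      rcases hg with h | h <;> rw [h]
      exacts [hq a ha, hq b hb])
    rw [pow_one, ← map_pow, ← hφ, SubmonoidClass.coe_pow, map_pow, h1, one_smul]; rfl
  obtain ⟨θ, hθ, hle⟩ := H10.exists_SL2_prime_le p hp2 φ.range (one_lt_card_sylow
    (s := φ '' ((closure ({a, b} : Set Γ)).subtype ⁻¹' {a, b})) (by
      rw [← MonoidHom.map_closure, closure_preimage_eq_top, MonoidHom.range_eq_map]) (by
      rintro _ ⟨g, hg, rfl⟩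
      exact ⟨⟨g, rfl⟩, 1, hpp g hg⟩) hnp)
  obtain ⟨j₀, hj₀, hθj⟩ := exists_form θ hθ
  set w₀ := j₀ ![1, 0] with hw₀
  set w₁ := j₀ ![0, 1] with hw₁
  have hdec : ∀ v : Fin 2 → ZMod p, j₀ v = algebraMap (ZMod p) K (v 0) • w₀ + algebraMap (ZMod p) K (v 1) • w₁ :=
    fun v => by
      rw [algebraMap_smul, algebraMap_smul, hw₀, hw₁, ← map_smul, ← map_smul, ← map_add]
      congr 1
      ext i; fin_cases i <;> simp
  have hlin : ∀ (m : SL(2, K)) (x y : K), m • (x • w₀ + y • w₁) = x • m • w₀ + y • m • w₁ := fun m x y => by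
    simp only [sl_smul, mulVec_add, mulVec_smul]
  have h0 : ∀ β : SL(2, ZMod p), θ β • w₀ = algebraMap (ZMod p) K (β 0 0) • w₀ + algebraMap (ZMod p) K (β 1 0) • w₁ :=
    fun β => by
      refine (hθj β ![1, 0]).trans ?_
      rw [hdec, sl_smul]
      simp [mulVec, dotProduct, Fin.sum_univ_two]
  have h1 : ∀ β : SL(2, ZMod p), θ β • w₁ = algebraMap (ZMod p) K (β 0 1) • w₀ + algebraMap (ZMod p) K (β 1 1) • w₁ :=
    fun β => by
      refine (hθj β ![0, 1]).trans ?_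
      rw [hdec, sl_smul]
      simp [mulVec, dotProduct, Fin.sum_univ_two]
  have hu : ∀ x y : K, θ (tvU 1) • (x • w₀ + y • w₁) = x • w₀ + y • w₁ + y • w₀ := fun x y => by
    obtain ⟨e1, e2, e3, e4⟩ := tvU_one p
    rw [hlin, h0, h1, e1, e2, e3, e4, map_one, map_zero]
    module
  have hsurj : ∀ w : Fin 2 → K, ∃ x y : K, w = x • w₀ + y • w₁ := by
    have hi : Function.Injective (pl K w₀ w₁) := (injective_iff_map_eq_zero _).2 fun v hv => by
      rw [pl_apply] at hv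
      have h2 := hu (v 0) (v 1)
      rw [hv, smul_zero, zero_add, eq_comm, smul_eq_zero_iff_left hj₀] at h2
      rw [h2, zero_smul, add_zero, smul_eq_zero_iff_left hj₀] at hv
      ext i; fin_cases i <;> simp [h2, hv]
    intro w
    obtain ⟨v, hv⟩ := LinearMap.injective_iff_surjective.1 hi w
    exact ⟨v 0, v 1, by rw [← hv, pl_apply]⟩
  let a' : closure ({a, b} : Set Γ) := ⟨a, subset_closure (by simp)⟩
  obtain ⟨y, hy⟩ : ∃ y : closure ({a, b} : Set Γ), φ (y * a' * y⁻¹) • w₀ = w₀ := by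
    have hU : θ (tvU 1) ^ p ^ 1 = 1 := by
      rw [pow_one, ← map_pow, tvU_pow]
      simp only [CharP.cast_eq_zero, zero_mul]
      rw [show (tvU (0 : ZMod p)) = 1 from by ext i j; fin_cases i <;> fin_cases j <;> simp, map_one]
    obtain ⟨S, hS, hUS⟩ := exists_isSyl_ge (isPGroup_zpowers hU) (zpowers_le.2 (hle ⟨_, rfl⟩))
    obtain ⟨_, ⟨y, rfl⟩, hy⟩ := hS.exists_conj_mem (x := φ a') ⟨a', rfl⟩ (hpp a' (Or.inl rfl))
    have : Finite S := hS.finite
    obtain ⟨w, hw, hw0⟩ := hS.isP.exists_fixed_point_of_prime_dvd_card_of_fixed_point (Fin 2 → K)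
      (a := 0) (by
        rw [Nat.card_fun, GaloisField.card p _ hk0]
        exact (dvd_pow_self p hk0).trans (dvd_pow_self _ (by simp))) (fun g => smul_zero _)
    obtain ⟨x, z, rfl⟩ := hsurj w
    have h2 : θ (tvU 1) • (x • w₀ + z • w₁) = _ := hw ⟨_, hUS (mem_zpowers _)⟩
    rw [hu, add_eq_left, smul_eq_zero_iff_left hj₀] at h2
    have h3 : (φ y * φ a' * (φ y)⁻¹) • (x • w₀ + z • w₁) = _ := hw ⟨_, hy⟩
    rw [hlin, h2, zero_smul, add_zero, zero_smul, add_zero] at h3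
    have hx : x ≠ 0 := fun hx => hw0 (by rw [hx, h2]; simp)
    exact ⟨y, by rw [map_mul, map_mul, map_inv]; exact smul_right_injective _ hx h3⟩
  obtain ⟨π, hπ, hπ'⟩ : ∃ π : K ⊗[ZMod p] M →ₗ[ZMod p] M, π (ι w₀) ≠ 0 ∧
      ∀ x w, π (ρ' x w) = ρ x (π w) := by
    let ℬ := Module.Free.chooseBasis (ZMod p) K
    obtain ⟨i, hi⟩ : ∃ i, equivFinsuppOfBasisLeft ℬ (ι w₀) i ≠ 0 := by
      by_contra hc
      push Not at hc
      exact hj₀ (hι (((equivFinsuppOfBasisLeft ℬ).map_eq_zero_iff.1 (Finsupp.ext hc)).trans (map_zero ι).symm))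
    rw [equivFinsuppOfBasisLeft_apply] at hi
    refine ⟨(TensorProduct.lid (ZMod p) M).toLinearMap ∘ₗ (ℬ.coord i).rTensor M, hi, fun x w => ?_⟩
    induction w with
    | zero => simp
    | add u v hu hv => simp only [map_add, hu, hv]
    | tmul c m => rw [show ρ' x (c ⊗ₜ m) = c ⊗ₜ ρ x m from rfl]; simp
  let F : (Fin 2 → K) →ₗ[ZMod p] M := ρ (y⁻¹ : closure ({a, b} : Set Γ)) ∘ₗ π ∘ₗ ι.restrictScalars (ZMod p)
  have hF : ∀ (g : closure ({a, b} : Set Γ)) w, ρ g (F w) = F (φ (y * g * y⁻¹) • w) := fun g w => by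
    change ρ g (ρ _ (π (ι w))) = ρ _ (π (ι _))
    rw [← hφ, hπ', ← Module.End.mul_apply, ← Module.End.mul_apply, ← map_mul, ← map_mul]
    congr 2
    simp [mul_assoc]
  have hF0 : F w₀ ≠ 0 := fun h => hπ (by
    have h2 := congrArg (ρ y) h
    change ρ y (ρ _ (π (ι w₀))) = _ at h2
    rwa [← Module.End.mul_apply, ← map_mul, map_zero, InvMemClass.coe_inv, mul_inv_cancel, map_one] at h2)
  have hm : ∀ β : SL(2, ZMod p), ∃ m : closure ({a, b} : Set Γ), ∀ w, ρ m (F w) = F (θ β • w) := fun β => by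
    obtain ⟨g, hg⟩ := hle ⟨β, rfl⟩
    exact ⟨y⁻¹ * g * y, fun w => by rw [hF, ← hg]; congr 3; group⟩
  refine ⟨LinearMap.range F, LinearMap.range (F ∘ₗ (LinearMap.toSpanSingleton K _ w₀).restrictScalars (ZMod p)),
    F ∘ₗ j₀, (injective_iff_map_eq_zero _).2 fun v hv => ?_, ?_, LinearMap.range_comp_le_range _ _, fun h => hF0 ?_,
    ?_, fun β hβ => ?_⟩
  · obtain ⟨l, hl⟩ := hm (tvU 1)
    have h1 := hl (j₀ v)
    change F (j₀ v) = 0 at hv
    have h2 : tvU (1 : ZMod p) • v = v + v 1 • ![1, 0] := by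
      rw [tvU_smul]; ext i; fin_cases i <;> simp
    rw [hv, map_zero, hθj, h2, map_add, map_add, hv, zero_add, map_smul, map_smul, eq_comm,
      smul_eq_zero_iff_left hF0] at h1
    have h3 : v = v 0 • ![1, 0] := by ext i; fin_cases i <;> simp [h1]
    rw [h3, map_smul, map_smul, smul_eq_zero_iff_left hF0] at hv
    rw [h3, hv, zero_smul]
  · rintro g hg _ ⟨w, rfl⟩
    exact ⟨_, (hF ⟨g, hg⟩ w).symm⟩
  · exact (Submodule.eq_bot_iff _).1 h _ ⟨1, by simp⟩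
  · rintro _ ⟨x, rfl⟩
    change ρ a' (F (x • w₀)) = F (x • w₀)
    rw [hF, smul_comm, hy]
  · obtain ⟨m, hm⟩ := hm β
    have hd : algebraMap (ZMod p) K (β 0 0) * algebraMap (ZMod p) K (β 1 1) = 1 := by
      have := β.det_coe
      rw [det_fin_two, hβ, mul_zero, sub_zero] at this
      rw [← map_mul, this, map_one]
    refine ⟨m, m.2, fun v => ?_, ?_, ?_, ?_⟩
    · change ρ m (F (j₀ v)) = F (j₀ _)
      rw [hm, hθj]
    · rintro _ ⟨x, rfl⟩
      refine ⟨x * algebraMap (ZMod p) K (β 0 0), ?_⟩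
      change F ((x * algebraMap (ZMod p) K (β 0 0)) • w₀) = ρ m (F (x • w₀))
      rw [hm, smul_comm, h0, hβ, map_zero, zero_smul, add_zero, mul_smul]
    · rintro _ ⟨w, rfl⟩
      obtain ⟨x, z, rfl⟩ := hsurj w
      rw [hm, hm, ← F.map_add, ← F.map_smul, ← algebraMap_smul K (β 0 0 + β 1 1), (algebraMap (ZMod p) K).map_add]
      congr 1
      have e1 : θ β • (x • w₀ + z • w₁) = (x * algebraMap (ZMod p) K (β 0 0) + z * algebraMap (ZMod p) K (β 0 1)) • w₀ +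
          (z * algebraMap (ZMod p) K (β 1 1)) • w₁ := by
        rw [hlin, h0, h1, hβ, map_zero]; module
      rw [e1, hlin, h0, h1, hβ, map_zero]
      linear_combination (norm := module) (-x * hd) • w₀ + (-z * hd) • w₁
    · rintro rfl _ ⟨w, rfl⟩
      obtain ⟨x, z, rfl⟩ := hsurj w
      rw [hm, ← map_neg, hlin, h0, h1]
      congr 1
      simp
      module

section Mod

variable {Γ : Type*} [Group Γ] {R : Type*} [CommRing R] {M : Type*} [AddCommGroup M] [Module R M]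

/-- Invariant submodules. -/
def InvS (ρ : Γ →* Module.End R M) (V : Submodule R M) : Prop := ∀ g, ∀ v ∈ V, ρ g v ∈ V

theorem rho_mul (ρ : Γ →* Module.End R M) (g h : Γ) (v : M) : ρ (g * h) v = ρ g (ρ h v) := by rw [map_mul]; rfl

theorem rho_inv (ρ : Γ →* Module.End R M) (g : Γ) (v : M) : ρ g⁻¹ (ρ g v) = v := by
  rw [← rho_mul, inv_mul_cancel, map_one]; rfl

theorem rho_inv' (ρ : Γ →* Module.End R M) (g : Γ) (v : M) : ρ g (ρ g⁻¹ v) = v := by
  rw [← rho_mul, mul_inv_cancel, map_one]; rfl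

/-- Pointwise stabilizer. -/
def fixS (ρ : Γ →* Module.End R M) (V : Submodule R M) : Subgroup Γ where
  carrier := {g | ∀ v ∈ V, ρ g v = v}
  one_mem' v _ := by rw [map_one]; rfl
  mul_mem' ha hb v hv := by rw [rho_mul, hb v hv, ha v hv]
  inv_mem' {g} ha v hv := by conv_lhs => rw [← ha v hv, rho_inv]

theorem InvS.normal {ρ : Γ →* Module.End R M} {V : Submodule R M} (h : InvS ρ V) : (fixS ρ V).Normal :=
  ⟨fun n hn g v hv => by rw [rho_mul, rho_mul, hn _ (h _ v hv), rho_inv']⟩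

/-- Setwise stabilizer. -/
def stabS [Finite Γ] (ρ : Γ →* Module.End R M) (V : Submodule R M) : Subgroup Γ where
  carrier := {g | ∀ v ∈ V, ρ g v ∈ V}
  one_mem' v hv := by rw [map_one]; exact hv
  mul_mem' ha hb v hv := by rw [rho_mul]; exact ha _ (hb v hv)
  inv_mem' {g} ha := by
    have h : ∀ n : ℕ, ∀ v ∈ V, ρ (g ^ n) v ∈ V := fun n => by
      induction n with
      | zero => intro v hv; rw [pow_zero, map_one]; exact hv
      | succ n ih => intro v hv; rw [pow_succ, rho_mul]; exact ih _ (ha v hv)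
    have e : g⁻¹ = g ^ (orderOf g - 1) := by
      rw [inv_eq_iff_mul_eq_one, ← pow_succ', Nat.sub_add_cancel (orderOf_pos g), pow_orderOf_eq_one]
    rw [e]; exact h _

/-- Restriction to an invariant submodule. -/
def resRep (ρ : Γ →* Module.End R M) (V : Submodule R M) (h : InvS ρ V) : Γ →* Module.End R V where
  toFun g := (ρ g).restrict (h g)
  map_one' := by ext; simp
  map_mul' g h := by ext; simp

/-- The quotient by an invariant submodule. -/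
def quotRep (ρ : Γ →* Module.End R M) (V : Submodule R M) (h : InvS ρ V) : Γ →* Module.End R (M ⧸ V) where
  toFun g := V.mapQ V (ρ g) (h g)
  map_one' := by ext; simp
  map_mul' g h := by ext; simp

theorem quotRep_mk (ρ : Γ →* Module.End R M) (V : Submodule R M) (h : InvS ρ V) (g : Γ) (v : M) :
    quotRep ρ V h g (V.mkQ v) = V.mkQ (ρ g v) := rfl

end Mod

section ML

variable [hp : Fact p.Prime] {Γ : Type*} [Group Γ] [Finite Γ] {M : Type*} [AddCommGroup M] [Module (ZMod p) M]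
  [Finite M]

omit [Finite Γ] in
theorem exists_fixed (ρ : Γ →* Module.End (ZMod p) M) {O : Subgroup Γ} (hO : IsPGroup p O) {V : Submodule (ZMod p) M}
    (hV : InvS ρ V) (hne : V ≠ ⊥) : ∃ v ∈ V, v ≠ 0 ∧ ∀ g ∈ O, ρ g v = v := by
  let _ : MulAction O V := MulAction.compHom V ((resRep ρ V hV).comp O.subtype)
  obtain ⟨v, hv, hv0⟩ := (Submodule.ne_bot_iff V).1 hne
  have h1 : addOrderOf (⟨v, hv⟩ : V) = p := addOrderOf_eq_prime (by
    rw [← Nat.cast_smul_eq_nsmul (ZMod p), CharP.cast_eq_zero, zero_smul]) fun h => hv0 (congrArg Subtype.val h)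
  obtain ⟨w, hw, hw0⟩ := hO.exists_fixed_point_of_prime_dvd_card_of_fixed_point V (a := 0)
    (h1.symm.dvd.trans (addOrderOf_dvd_natCard _)) (fun g => map_zero (resRep ρ V hV g))
  exact ⟨w, w.2, fun h => hw0 (Subtype.ext h.symm), fun g hg => congrArg Subtype.val (hw ⟨g, hg⟩)⟩

theorem ml0 (hp2 : p ≠ 2) (ρ : Γ →* Module.End (ZMod p) M) {a x : Γ} {O Γ₀ : Subgroup Γ} [O.Normal]
    (hO : IsPGroup p O) {k : ℕ} (hak : a ^ p ^ k = 1) (ha : (ρ a - 1) * (ρ a - 1) = 0)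
    (hgen : closure {a, x * a * x⁻¹} ⊔ O = ⊤) (hu : ∀ X : Subgroup Γ, a ∈ X → O ≤ X → X ≠ ⊤ → X ≤ Γ₀)
    {U Y : Submodule (ZMod p) M} (hU : Γ₀ ≤ stabS ρ U) (hY : InvS ρ Y) (hUY : U ≤ Y)
    (hYU : ∀ V, InvS ρ V → U ≤ V → Y ≤ V) (hne : ¬ pResidualOf p ⊤ ≤ fixS ρ Y)
    (hmin : ∀ V, InvS ρ V → V ≤ Y → V ≠ ⊥ → ∀ r ∈ pResidualOf p (⊤ : Subgroup Γ), ∀ y ∈ Y, ρ r y - y ∈ V) :
    ∃ j : (Fin 2 → ZMod p) →ₗ[ZMod p] M, Function.Injective j ∧
      (∀ β : SL(2, ZMod p), β 1 0 = 0 → ∃ m ∈ Γ₀, ∀ v, ρ m (j v) = j (β • v)) ∧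
      ∀ τ : (ZMod p)ˣ, ∃ n ∈ Γ₀, ∃ u ∈ U, u ≠ 0 ∧ ρ n u = (τ : ZMod p) • u := by
  set R := pResidualOf p (⊤ : Subgroup Γ) with hR
  have hRn : R.Normal := normal_of_top_le_normalizer (le_normalizer_pResidualOf p ⊤)
  set V := Submodule.span (ZMod p) {z | ∃ r ∈ R, ∃ y ∈ Y, ρ r y - y = z} with hV
  have hVm : ∀ r ∈ R, ∀ y ∈ Y, ρ r y - y ∈ V := fun r hr y hy => Submodule.subset_span ⟨r, hr, y, hy, rfl⟩
  have hVY : V ≤ Y := Submodule.span_le.2 (by rintro _ ⟨r, -, y, hy, rfl⟩; exact sub_mem (hY r y hy) hy)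
  have hVi : InvS ρ V := fun g => by
    change V ≤ V.comap (ρ g)
    refine Submodule.span_le.2 ?_
    rintro _ ⟨r, hr, y, hy, rfl⟩
    have := hVm _ (hRn.conj_mem r hr g) _ (hY g y hy)
    rwa [rho_mul, rho_mul, rho_inv, ← map_sub] at this
  have hV0 : V ≠ ⊥ := fun h => hne fun r hr y hy => sub_eq_zero.1 ((Submodule.eq_bot_iff _).1 h _ (hVm r hr y hy))
  have hirr : ∀ V', InvS ρ V' → V' ≤ V → V' ≠ ⊥ → V ≤ V' := fun V' h1 h2 h3 => Submodule.span_le.2 (by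
    rintro _ ⟨r, hr, y, hy, rfl⟩; exact hmin V' h1 (h2.trans hVY) h3 r hr y hy)
  have hFn := hVi.normal
  have hOV : O ≤ fixS ρ V := by
    obtain ⟨v, hv, hv0, hvO⟩ := exists_fixed ρ hO hVi hV0
    let C : Submodule (ZMod p) M :=
      { carrier := {w | w ∈ V ∧ ∀ g ∈ O, ρ g w = w}
        zero_mem' := ⟨zero_mem _, fun g _ => map_zero _⟩
        add_mem' := fun h1 h2 => ⟨add_mem h1.1 h2.1, fun g hg => by rw [map_add, h1.2 g hg, h2.2 g hg]⟩
        smul_mem' := fun c w h => ⟨V.smul_mem c h.1, fun g hg => by rw [map_smul, h.2 g hg]⟩ }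
    have := hirr C (fun g w hw => ⟨hVi g w hw.1, fun o ho => by
      have := hw.2 _ (‹O.Normal›.conj_mem' o ho g)
      rw [rho_mul, rho_mul] at this
      conv_rhs => rw [← this, rho_inv']⟩) (fun w hw => hw.1) ((Submodule.ne_bot_iff _).2 ⟨v, ⟨hv, hvO⟩, hv0⟩)
    exact fun o ho w hw => (this hw).2 o ho
  have hRV : ¬ R ≤ fixS ρ V := fun h => hne (pResidualOf_le_iff.2 fun r _ hr => by
    have hr' : r ∈ R := mem_pResidualOf (mem_top r) hr
    refine mem_of_pow_mem_coprime_orderOf hr fun y hy => ?_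
    have h1 : ∀ n : ℕ, ρ (r ^ n) y = y + (n : ZMod p) • (ρ r y - y) := fun n => by
      induction n with
      | zero => simp
      | succ n ih => rw [pow_succ', rho_mul, ih, map_add, map_smul, h hr' _ (hVm r hr' y hy)]; push_cast; module
    rw [h1, CharP.cast_eq_zero, zero_smul, add_zero])
  have hF1 : ∀ N : Subgroup Γ, N.Normal → ¬ R ≤ N → N ≤ Γ₀ := fun N hN h => by
    refine le_sup_right.trans (hu (zpowers a ⊔ O ⊔ N) (mem_sup_left (mem_sup_left (mem_zpowers a)))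
      (le_sup_right.trans le_sup_left) fun h1 => h ?_)
    rw [hR, ← h1]
    exact pResidualOf_sup_le (isPGroup_sup (isPGroup_zpowers hak) hO (by rw [normalizer_eq_top]; exact le_top))
      (by rw [normalizer_eq_top]; exact le_top)
  have hq : ∀ g, (ρ g - 1) * (ρ g - 1) = 0 → (resRep ρ V hVi g - 1) * (resRep ρ V hVi g - 1) = 0 := fun g hg =>
    LinearMap.ext fun v => Subtype.ext (LinearMap.congr_fun hg v)
  obtain ⟨N, Λ, j, hj, hN, hΛN, hΛ0, hΛa, hβ⟩ := quad_borel hp2 (resRep ρ V hVi) (a := a) (b := x * a * x⁻¹) (hq a ha)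
    (hq _ (LinearMap.ext fun v => by
      have := congrArg (ρ x) (LinearMap.congr_fun ha (ρ x⁻¹ v))
      simpa [rho_mul, rho_inv, rho_inv'] using this))
    (fun h => hRV (pResidualOf_le_of_pow_mem fun g hg => by
      rw [← hgen] at hg
      obtain ⟨c, hc, o, ho, rfl⟩ := (mem_sup_of_le_normalizer (by rw [normalizer_eq_top]; exact le_top)).1 hg
      obtain ⟨l, hl⟩ := h c hc
      have h1 : c ^ p ^ l ∈ fixS ρ V := fun v hv => congrArg Subtype.val (LinearMap.congr_fun hl ⟨v, hv⟩)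
      exact ⟨l, by simpa using mul_mem h1 (inv_pow_mul_pow_mem (a := c) (by simp [normalizer_eq_top]) (hOV ho) (p ^ l))⟩))
  have hmap0 : ∀ X : Submodule (ZMod p) V, X ≠ ⊥ → X.map V.subtype ≠ ⊥ := fun X hX h =>
    hX (Submodule.map_injective_of_injective V.injective_subtype (h.trans (Submodule.map_bot _).symm))
  have hOs : ∀ X : Submodule (ZMod p) V, O ≤ stabS ρ (X.map V.subtype) := fun X o ho v hv => by
    rw [hOV ho v (Submodule.map_subtype_le _ _ hv)]; exact hv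
  have hNt : ∀ v : V, v ∈ N := fun v => by
    have h1 : stabS ρ (N.map V.subtype) = ⊤ := eq_top_iff.2 (hgen.ge.trans (sup_le (by
      rintro g hg _ ⟨w, hw, rfl⟩
      exact ⟨_, hN g hg w hw, rfl⟩) (hOs N)))
    obtain ⟨w, hw, e⟩ := hirr _ (fun g => h1.ge (mem_top g)) (Submodule.map_subtype_le _ _)
      (hmap0 N fun h => hΛ0 (eq_bot_iff.2 (hΛN.trans h.le))) v.2
    exact (Subtype.ext e : w = v) ▸ hw
  have hΛa' : ∀ v ∈ Λ.map V.subtype, ρ a v = v := by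
    rintro _ ⟨w, hw, rfl⟩
    exact congrArg Subtype.val (hΛa w hw)
  have hS : stabS ρ (Λ.map V.subtype) ≤ Γ₀ := hu _ (fun v hv => by rw [hΛa' v hv]; exact hv) (hOs Λ) fun h => by
    have h1 : a ∈ fixS ρ V := fun v hv => hΛa' v (hirr _ (fun g => h.ge (mem_top g)) (Submodule.map_subtype_le _ _)
      (hmap0 Λ hΛ0) hv)
    refine hRV (le_top.trans (hgen.ge.trans (sup_le ((closure_le _).2 ?_) hOV)))
    rintro _ (rfl | rfl)
    exacts [h1, hFn.conj_mem a h1 x]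
  replace hβ : ∀ β : SL(2, ZMod p), β 1 0 = 0 → ∃ m ∈ Γ₀, (∀ v, ρ m (j v) = j (β • v)) ∧
      (∀ v ∈ V, ρ m (ρ m v) + v = (β 0 0 + β 1 1) • ρ m v) ∧ (β = -1 → ∀ v ∈ V, ρ m v = -v) := fun β h => by
    obtain ⟨m, -, h1, h2, h3, h4⟩ := hβ β h
    refine ⟨m, hS ?_, fun v => congrArg Subtype.val (h1 v), fun v hv => congrArg Subtype.val (h3 ⟨v, hv⟩ (hNt _)),
      fun e v hv => congrArg Subtype.val (h4 e ⟨v, hv⟩ (hNt _))⟩
    rintro _ ⟨w, hw, rfl⟩
    exact ⟨_, h2 w hw, rfl⟩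
  have hUV : U ⊓ V ≠ ⊥ := fun h => by
    have h1 : R ⊓ Γ₀ ≤ fixS ρ U := fun r hr u hu => sub_eq_zero.1 ((Submodule.eq_bot_iff _).1 h _
      ⟨sub_mem (hU hr.2 u hu) hu, hVm r hr.1 u (hUY hu)⟩)
    have h2 : R ⊓ fixS ρ V ≤ fixS ρ U := (le_inf inf_le_left (hF1 _ inferInstance fun h => hRV (h.trans inf_le_right))).trans h1
    obtain ⟨m, hm, -, -, h3⟩ := hβ (-1) (by simp)
    replace h3 := h3 rfl
    obtain ⟨e, he⟩ := exists_pow_coprime (p := p) (isOfFinOrder_of_finite m)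
    have h4 : ∀ n : ℕ, ∀ v ∈ V, ρ (m ^ n) v = (-1 : ZMod p) ^ n • v := fun n => by
      induction n with
      | zero => simp
      | succ n ih => intro v hv; rw [pow_succ, rho_mul, h3 v hv, map_neg, ih v hv, pow_succ]; module
    set t := m ^ p ^ e
    have h5 : ∀ v ∈ V, ρ t v = -v := fun v hv => by
      rw [h4 _ v hv, ((hp.out.odd_of_ne_two hp2).pow).neg_one_pow, neg_one_smul]
    have htR : t ∈ R := mem_pResidualOf (mem_top t) he
    have htU : t ∈ fixS ρ U := h1 ⟨htR, pow_mem hm _⟩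
    let C : Submodule (ZMod p) M :=
      { carrier := {w | ∀ g, ρ t (ρ g w) = ρ g w}
        zero_mem' := fun g => by simp
        add_mem' := fun h1 h2 g => by rw [map_add, map_add, h1 g, h2 g]
        smul_mem' := fun c w h g => by rw [map_smul, map_smul, h g] }
    have h6 := hYU C (fun g w hw l => by rw [← rho_mul ρ l g]; exact hw _) fun u hu g => by
      have h7 : g⁻¹ * t * g * t⁻¹ ∈ R ⊓ fixS ρ V := ⟨R.mul_mem (hRn.conj_mem' t htR g) (R.inv_mem htR), fun v hv => by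
        have h8 : ρ t⁻¹ v = -v := by rw [← neg_neg v, ← h5 _ (neg_mem hv), rho_inv, h5 _ (neg_mem hv), neg_neg]
        rw [rho_mul, rho_mul, rho_mul, h8, h5 _ (hVi _ _ (neg_mem hv)), map_neg, map_neg, map_neg, rho_inv, neg_neg]⟩
      have h8 := h2 h7 u hu
      rw [rho_mul, rho_mul, rho_mul, inv_mem htU u hu] at h8
      conv_rhs => rw [← h8, rho_inv']
    refine hV0 ((Submodule.eq_bot_iff _).2 fun v hv => ?_)
    have h7 := h6 (hVY hv) 1
    rw [map_one, Module.End.one_apply, h5 v hv, neg_eq_iff_add_eq_zero, ← two_smul (ZMod p)] at h7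
    exact (smul_eq_zero.1 h7).resolve_left (ZMod.natCast_eq_zero_iff 2 p |>.not.2 fun h =>
      hp2 ((Nat.prime_dvd_prime_iff_eq hp.out Nat.prime_two).1 h))
  refine ⟨V.subtype ∘ₗ j, V.injective_subtype.comp hj, fun β h => (hβ β h).imp fun m h => ⟨h.1, h.2.1⟩, fun τ => ?_⟩
  obtain ⟨u, ⟨hu1, hu2⟩, hu0⟩ := (Submodule.ne_bot_iff _).1 hUV
  obtain ⟨n, hn, -, h1, -⟩ := hβ (slOf !![(τ : ZMod p), 0; 0, ((τ⁻¹ : (ZMod p)ˣ) : ZMod p)] (by
    rw [det_fin_two_of, Units.mul_inv, mul_zero, sub_zero])) rfl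
  replace h1 : ρ n (ρ n u) + u = ((τ : ZMod p) + ((τ⁻¹ : (ZMod p)ˣ) : ZMod p)) • ρ n u := h1 u hu2
  by_cases h2 : ρ n u - ((τ⁻¹ : (ZMod p)ˣ) : ZMod p) • u = 0
  · refine ⟨n⁻¹, inv_mem hn, u, hu1, hu0, ?_⟩
    have h3 := congrArg (fun w => (τ : ZMod p) • ρ n⁻¹ w) (sub_eq_zero.1 h2)
    simp only [rho_inv, map_smul, smul_smul, Units.mul_inv, one_smul] at h3
    exact h3.symm
  · refine ⟨n, hn, _, sub_mem (hU hn u hu1) (U.smul_mem _ hu1), h2, ?_⟩
    rw [map_sub, map_smul, smul_sub, smul_smul, Units.mul_inv, one_smul]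
    linear_combination (norm := module) h1

theorem ml (hp2 : p ≠ 2) (ρ : Γ →* Module.End (ZMod p) M) {a x : Γ} {O Γ₀ : Subgroup Γ} [O.Normal]
    (hO : IsPGroup p O) {k : ℕ} (hak : a ^ p ^ k = 1) (ha : (ρ a - 1) * (ρ a - 1) = 0)
    (hgen : closure {a, x * a * x⁻¹} ⊔ O = ⊤) (hu : ∀ X : Subgroup Γ, a ∈ X → O ≤ X → X ≠ ⊤ → X ≤ Γ₀)
    (hnp : ¬ IsPGroup p (⊤ : Subgroup Γ)) {U : Submodule (ZMod p) M} (hU : Γ₀ ≤ stabS ρ U) (hU' : stabS ρ U ≠ ⊤) :
    ∃ (V₁ : Submodule (ZMod p) M) (κ : M →ₗ[ZMod p] (Fin 2 → ZMod p)), (∀ z, ∃ v ∈ V₁, κ v = z) ∧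
      (∀ β : SL(2, ZMod p), β 1 0 = 0 → ∃ m ∈ Γ₀, ∀ v ∈ V₁, ρ m v ∈ V₁ ∧ κ (ρ m v) = β • κ v) ∧
      ∀ τ : (ZMod p)ˣ, ∃ n ∈ Γ₀, ∃ u₀ ∈ U, ∀ u ∈ U, ρ n u - (τ : ZMod p) • u ≠ u₀ := by
  set Y := sInf {V | InvS ρ V ∧ U ≤ V}
  have hY : InvS ρ Y := fun g v hv => Submodule.mem_sInf.2 fun V hV => hV.1 g v (Submodule.mem_sInf.1 hv V hV)
  have hUY : U ≤ Y := le_sInf fun V hV => hV.2
  have hYU : ∀ V, InvS ρ V → U ≤ V → Y ≤ V := fun V h1 h2 => sInf_le ⟨h1, h2⟩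
  have : Finite (Submodule (ZMod p) M) := Finite.of_injective _ SetLike.coe_injective
  obtain ⟨V, ⟨hV, hVY, hV1⟩, hmax⟩ := (Set.toFinite {V | InvS ρ V ∧ V ≤ Y ∧
      ¬ ∀ r ∈ pResidualOf p (⊤ : Subgroup Γ), ∀ y ∈ Y, ρ r y - y ∈ V}).exists_maximal
    ⟨⊥, fun g v hv => by rw [(Submodule.mem_bot _).1 hv, map_zero]; exact zero_mem _, bot_le, fun h => by
      obtain ⟨S, hS, h1⟩ := exists_isSyl_ge (isPGroup_sup (isPGroup_zpowers hak) hO
        (by rw [normalizer_eq_top]; exact le_top)) le_top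
      refine hU' (eq_top_iff.2 (hS.le_of_pResidualOf_le (fun r hr u hu => ?_) ((hu S (h1 (mem_sup_left (mem_zpowers a)))
        (le_sup_right.trans h1) fun e => hnp (e ▸ hS.isP)).trans hU)))
      rw [sub_eq_zero.1 ((Submodule.mem_bot _).1 (h r hr u (hUY hu)))]; exact hu⟩
  have : Finite (M ⧸ V) := Finite.of_surjective _ V.mkQ_surjective
  have hUs : Γ₀ ≤ stabS (quotRep ρ V hV) (U.map V.mkQ) := by
    rintro g hg _ ⟨u, hu, rfl⟩
    exact ⟨_, hU hg u hu, rfl⟩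
  obtain ⟨j, hj, hβ, hτ⟩ := ml0 hp2 (quotRep ρ V hV) hO hak (LinearMap.ext fun v => by
      obtain ⟨v, rfl⟩ := V.mkQ_surjective v
      have := congrArg V.mkQ (LinearMap.congr_fun ha v)
      simpa [quotRep_mk, -Submodule.mkQ_apply] using this) hgen hu hUs (Y := Y.map V.mkQ)
    (by rintro g _ ⟨y, hy, rfl⟩; exact ⟨_, hY g y hy, rfl⟩) (Submodule.map_mono hUY)
    (fun X h1 h2 => Submodule.map_le_iff_le_comap.2 (hYU _ (fun g v hv => h1 g _ hv)
      (Submodule.map_le_iff_le_comap.1 h2)))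
    (fun h => hV1 fun r hr y hy => (Submodule.Quotient.eq V).1 (h hr _ ⟨y, hy, rfl⟩))
    (fun X h1 h2 h3 r hr => by
      rintro _ ⟨y, hy, rfl⟩
      by_contra hc
      refine h3 ((Submodule.eq_bot_iff _).2 fun z hz => ?_)
      obtain ⟨z, rfl⟩ := V.mkQ_surjective z
      refine (Submodule.Quotient.mk_eq_zero V).2 (hmax (y := X.comap V.mkQ) ⟨fun g v hv => h1 g _ hv, fun v hv => ?_,
        fun h => hc (by simpa [quotRep_mk, -Submodule.mkQ_apply] using h r hr y hy)⟩ (fun v hv => ?_) hz)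
      · obtain ⟨w, hw, e⟩ := h2 hv
        simpa using sub_mem hw (hVY ((Submodule.Quotient.eq V).1 e))
      · rw [Submodule.mem_comap, Submodule.mkQ_apply, (Submodule.Quotient.mk_eq_zero V).2 hv]; exact zero_mem _)
  obtain ⟨g, hg⟩ := j.exists_leftInverse_of_injective (LinearMap.ker_eq_bot.2 hj)
  have hg' : ∀ z, g (j z) = z := fun z => LinearMap.congr_fun hg z
  refine ⟨(LinearMap.range j).comap V.mkQ, g ∘ₗ V.mkQ, fun z => ?_, fun β h => ?_, fun τ => ?_⟩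
  · obtain ⟨v, hv⟩ := V.mkQ_surjective (j z)
    exact ⟨v, ⟨z, hv.symm⟩, by rw [LinearMap.comp_apply, hv, hg']⟩
  · obtain ⟨m, hm, h1⟩ := hβ β h
    refine ⟨m, hm, fun v ⟨z, hz⟩ => ?_⟩
    have h2 : V.mkQ (ρ m v) = j (β • z) := by rw [← quotRep_mk ρ V hV, ← hz, h1]
    exact ⟨⟨_, h2.symm⟩, by rw [LinearMap.comp_apply, LinearMap.comp_apply, h2, ← hz, hg', hg']⟩
  · obtain ⟨n, hn, u, hu, hu0, h1⟩ := hτ τ
    refine ⟨n, hn, ?_⟩
    by_contra hc
    push Not at hc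
    let f : U.map V.mkQ → U.map V.mkQ := fun v => ⟨quotRep ρ V hV n v - (τ : ZMod p) • v.1,
      sub_mem (hUs hn _ v.2) (Submodule.smul_mem _ _ v.2)⟩
    have hf : Function.Surjective f := by
      rintro ⟨_, u₀, h2, rfl⟩
      obtain ⟨w, hw, rfl⟩ := hc u₀ h2
      exact ⟨⟨_, w, hw, rfl⟩, Subtype.ext (by simp [f, quotRep_mk, -Submodule.mkQ_apply])⟩
    exact hu0 (congrArg Subtype.val (Finite.injective_iff_surjective.2 hf (a₁ := ⟨u, hu⟩) (a₂ := 0)
      (Subtype.ext (by simp [f, h1]))))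

end ML

end H27
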