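import Cfsg.Agent.H26.Am4

/-! Trivalent graphs with a locally `S₃` action (`GA.Tri`): kernels `kQ`, arcs, exits and arc transitivity (`AT`),
walks (`Near`). -/

set_option autoImplicit false

namespace H27.GA

open Cfsg Subgroup MulAction H26
open scoped Pointwise commutatorElement

variable {X : Type*} [Group X] {V : Type*} [MulAction X V]

/-- the kernel of the vertex stabilizer on the neighbours -/
def kQ (X : Type*) [Group X] {V : Type*} [MulAction X V] (adj : V → V → Prop) (a : V) : Subgroup X where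
  carrier := {g | g • a = a ∧ ∀ b, adj a b → g • b = b}
  one_mem' := ⟨one_smul _ _, fun _ _ => one_smul _ _⟩
  mul_mem' := fun {g h} hg hh => ⟨by rw [mul_smul, hh.1, hg.1], fun b hb => by rw [mul_smul, hh.2 b hb, hg.2 b hb]⟩
  inv_mem' := fun {g} hg => ⟨inv_smul_eq_iff.2 hg.1.symm, fun b hb => inv_smul_eq_iff.2 (hg.2 b hb).symm⟩

/-- elements normalizing `K` and commuting with `q` modulo `K` -/
def cm (K : Subgroup X) (q : X) : Subgroup X where
  carrier := {v | v ∈ 𝐍 K ∧ ⁅q, v⁆ ∈ K}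
  one_mem' := ⟨one_mem _, by simp⟩
  mul_mem' := fun {v w} hv hw => ⟨mul_mem hv.1 hw.1, by
    have : ⁅q, v * w⁆ = ⁅q, v⁆ * (v * ⁅q, w⁆ * v⁻¹) := by simp only [commutatorElement_def]; group
    rw [this]; exact K.mul_mem hv.2 (conj_mem_of_mem_normalizer hv.1 hw.2)⟩
  inv_mem' := fun {v} hv => ⟨inv_mem hv.1, by
    have : ⁅q, v⁻¹⁆ = v⁻¹ * ⁅q, v⁆⁻¹ * v := by simp only [commutatorElement_def]; group
    rw [this]; exact conj_mem_of_mem_normalizer' hv.1 (K.inv_mem hv.2)⟩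

theorem mem_cm {K : Subgroup X} {q v : X} : v ∈ cm K q ↔ v ∈ 𝐍 K ∧ ⁅q, v⁆ ∈ K := Iff.rfl

theorem conj_eq_of_commute {x u : X} (h : Commute x u) : x * u * x⁻¹ = u := by rw [h.eq]; group

theorem commute_of_conj_eq {x u : X} (h : x * u * x⁻¹ = u) : Commute x u := by
  rw [mul_inv_eq_iff_eq_mul] at h; exact h

theorem inv_eq_self_of {u : X} (h : u * u = 1) : u⁻¹ = u := inv_eq_of_mul_eq_one_right h

inductive Near (adj : V → V → Prop) : ℕ → V → V → Prop
  | refl (k : ℕ) (u : V) : Near adj k u u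
  | step {k : ℕ} {u w v : V} : adj u w → Near adj k w v → Near adj (k + 1) u v

section Near

variable {adj : V → V → Prop}

theorem Near.mono {k l : ℕ} {u v : V} (h : Near adj k u v) (hl : k ≤ l) : Near adj l u v := by
  induction h generalizing l with
  | refl k u => exact .refl _ _
  | step h1 _ ih =>
    obtain ⟨l, rfl⟩ : ∃ m, l = m + 1 := ⟨l - 1, by omega⟩
    exact .step h1 (ih (by omega))

theorem Near.trans {k l : ℕ} {u v w : V} (h : Near adj k u v) (h' : Near adj l v w) : Near adj (k + l) u w := by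
  induction h with
  | refl k u => exact h'.mono (by omega)
  | step h1 _ ih => exact (Near.step h1 (ih h')).mono (by omega)

theorem Near.one {u v : V} (h : adj u v) : Near adj 1 u v := .step h (.refl _ _)

theorem Near.symm' (hs : ∀ {a b}, adj a b → adj b a) {k : ℕ} {u v : V} (h : Near adj k u v) : Near adj k v u := by
  induction h with
  | refl k u => exact .refl _ _
  | step h1 _ ih => exact ih.trans (.one (hs h1))

theorem Near.smul' (hi : ∀ {a b} (g : X), adj a b → adj (g • a) (g • b)) (g : X) {k : ℕ} {u v : V}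
    (h : Near adj k u v) : Near adj k (g • u) (g • v) := by
  induction h with
  | refl k u => exact .refl _ _
  | step h1 _ ih => exact .step (hi g h1) ih

theorem Near.eq_of_zero {u v : V} (h : Near adj 0 u v) : u = v := by cases h; rfl

theorem Near.of_succ {k : ℕ} {u v : V} (h : Near adj (k + 1) u v) : u = v ∨ ∃ w, adj u w ∧ Near adj k w v := by
  cases h with
  | refl => exact .inl rfl
  | step h1 h2 => exact .inr ⟨_, h1, h2⟩

theorem Near.of_one {u v : V} (h : Near adj 1 u v) : u = v ∨ adj u v :=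
  h.of_succ.imp_right fun ⟨_, h1, h2⟩ => h2.eq_of_zero ▸ h1

theorem near_path {n : ℕ} {γ : ℕ → V} (h : Path adj n γ) {i j : ℕ} (hij : i ≤ j) (hj : j ≤ n) :
    Near adj (j - i) (γ i) (γ j) := by
  induction j, hij using Nat.le_induction with
  | base => exact .refl _ _
  | succ j hij ih => exact ((ih (by omega)).trans (.one (h j (by omega)))).mono (by omega)

theorem Near.exists_path {k : ℕ} {u v : V} (h : Near adj k u v) :
    ∃ m ≤ k, ∃ γ, Path adj m γ ∧ γ 0 = u ∧ γ m = v := by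
  induction h with
  | refl k u => exact ⟨0, by omega, fun _ => u, fun i hi => by omega, rfl, rfl⟩
  | step h1 _ ih =>
    obtain ⟨m, hm, γ, h2, h3, h4⟩ := ih
    exact ⟨m + 1, by omega, cons _ γ, h2.cons (h3 ▸ h1), rfl, h4⟩

/-- a walk without backtracking -/
def Arc (adj : V → V → Prop) (n : ℕ) (γ : ℕ → V) : Prop := Path adj n γ ∧ ∀ i, i + 2 ≤ n → γ (i + 2) ≠ γ i

theorem arc_zero (v : V) : Arc adj 0 fun _ => v := ⟨fun i hi => by omega, fun i hi => by omega⟩

theorem Arc.cons {n : ℕ} {γ : ℕ → V} (h : Arc adj n γ) {v : V} (hv : adj v (γ 0)) (hn : 1 ≤ n → γ 1 ≠ v) :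
    Arc adj (n + 1) (cons v γ) :=
  ⟨h.1.cons hv, fun i hi => by
    cases i with
    | zero => exact hn (by omega)
    | succ i => exact h.2 i (by omega)⟩

theorem Arc.mono {n m : ℕ} {γ : ℕ → V} (h : Arc adj n γ) (hm : m ≤ n) : Arc adj m γ :=
  ⟨h.1.mono hm, fun i hi => h.2 i (hi.trans hm)⟩

theorem Arc.shift {n : ℕ} {γ : ℕ → V} (h : Arc adj n γ) {i m : ℕ} (hm : i + m ≤ n) :
    Arc adj m fun k => γ (i + k) :=
  ⟨fun k hk => h.1 (i + k) (by omega), fun k hk => h.2 (i + k) (by omega)⟩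

theorem path_rev (hs : ∀ {a b}, adj a b → adj b a) {n : ℕ} {γ : ℕ → V} (h : Path adj n γ) :
    Path adj n fun k => γ (n - k) := fun k hk => by
  have := hs (h (n - (k + 1)) (by omega))
  rwa [show n - (k + 1) + 1 = n - k by omega] at this

theorem Arc.rev' (hs : ∀ {a b}, adj a b → adj b a) {n : ℕ} {γ : ℕ → V} (h : Arc adj n γ) :
    Arc adj n fun k => γ (n - k) :=
  ⟨path_rev hs h.1, fun k hk => by
    have := (h.2 (n - (k + 2)) (by omega)).symm
    rwa [show n - (k + 2) + 2 = n - k by omega] at this⟩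

/-- append a vertex -/
def snoc (n : ℕ) (γ : ℕ → V) (v : V) : ℕ → V := fun i => if i ≤ n then γ i else v

theorem snoc_le {n i : ℕ} (γ : ℕ → V) (v : V) (h : i ≤ n) : snoc n γ v i = γ i := if_pos h

theorem snoc_succ (n : ℕ) (γ : ℕ → V) (v : V) : snoc n γ v (n + 1) = v := if_neg (by omega)

theorem Arc.snoc {n : ℕ} {γ : ℕ → V} (h : Arc adj (n + 1) γ) {v : V} (hv : adj (γ (n + 1)) v) (hn : v ≠ γ n) :
    Arc adj (n + 2) (snoc (n + 1) γ v) := by
  refine ⟨fun i hi => ?_, fun i hi => ?_⟩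
  · rcases Nat.lt_or_ge i (n + 1) with e | e
    · rw [snoc_le _ _ e.le, snoc_le _ _ e]; exact h.1 i e
    · obtain rfl : i = n + 1 := by omega
      rw [snoc_le _ _ le_rfl, snoc_succ]; exact hv
  · rcases Nat.lt_or_ge i n with e | e
    · rw [snoc_le _ _ (by omega), snoc_le _ _ (by omega)]; exact h.2 i (by omega)
    · obtain rfl : i = n := by omega
      rw [snoc_succ, snoc_le _ _ (by omega)]; exact hn

end Near

structure Tri (X : Type*) [Group X] {V : Type*} [MulAction X V] (adj : V → V → Prop) : Prop where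
  symm : ∀ {a b}, adj a b → adj b a
  inv : ∀ {a b} (g : X), adj a b → adj (g • a) (g • b)
  three : ∀ {a b}, adj a b → ∃ c d, adj a c ∧ adj a d ∧ c ≠ b ∧ d ≠ b ∧ c ≠ d
  four : ∀ {a b c d e}, adj a b → adj a c → adj a d → adj a e → b ≠ c → b ≠ d → c ≠ d → e = b ∨ e = c ∨ e = d
  trans : ∀ {a b c}, adj a b → adj a c → ∃ g : X, g • a = a ∧ g • b = c
  move : ∀ {a b}, adj a b → ∃ g : X, g • a = a ∧ g • b = b ∧ g ∉ kQ X adj a
  free : ∀ {a b}, adj a b → ∀ N ≤ eT X a b, stabilizer X a ≤ 𝐍 N → stabilizer X b ≤ 𝐍 N → N = ⊥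
  fin : ∀ {a b}, adj a b → Finite (eT X a b)
  pg : ∀ {a b}, adj a b → IsPGroup 2 (eT X a b)

namespace Tri

variable {adj : V → V → Prop} (h : Tri X adj) {a b c d : V} {g x y : X}

local notation "Q" => kQ X adj
local notation "T" => eT X

theorem _root_.H27.GA.Qa (hx : x ∈ Q a) : x • a = a := hx.1

theorem _root_.H27.GA.Qb (hx : x ∈ Q a) (hb : adj a b) : x • b = b := hx.2 b hb

theorem _root_.H27.GA.mem_T : x ∈ T a b ↔ x • a = a ∧ x • b = b := Iff.rfl

theorem _root_.H27.GA.Q_le_T (hb : adj a b) : Q a ≤ T a b := fun _ hx => ⟨Qa hx, Qb hx hb⟩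

theorem _root_.H27.GA.Q_le_T' (hb : adj a b) : Q a ≤ T b a := fun _ hx => ⟨Qb hx hb, Qa hx⟩

include h

theorem inv' (hg : g • a = a) (hb : adj a b) : adj a (g • b) := by simpa [hg] using h.inv g hb

theorem conj_Q (g : X) (hx : x ∈ Q a) : g * x * g⁻¹ ∈ Q (g • a) :=
  ⟨by simp [mul_smul, Qa hx], fun b hb => by
    have := h.inv g⁻¹ hb
    rw [inv_smul_smul] at this
    rw [mul_smul, mul_smul, Qb hx this, smul_inv_smul]⟩

theorem conj_Q_iff (g : X) : g * x * g⁻¹ ∈ Q (g • a) ↔ x ∈ Q a :=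
  ⟨fun e => by simpa [mul_assoc] using h.conj_Q g⁻¹ e, h.conj_Q g⟩

theorem cj_Q (g : X) (a : V) : cj g (Q a) = Q (g • a) := by
  ext x; rw [mem_cj, ← h.conj_Q_iff g]; simp [mul_assoc]

theorem conj_Q' (hg : g • a = a) (hx : x ∈ Q a) : g * x * g⁻¹ ∈ Q a := by simpa [hg] using h.conj_Q g hx

theorem nQ (a : V) : stabilizer X a ≤ 𝐍 (Q a) := fun g hg => cj_eq_iff.1 (by rw [h.cj_Q, mem_stabilizer_iff.1 hg])

theorem third (hb : adj a b) (_hc : adj a c) (_hbc : b ≠ c) : ∃ d, adj a d ∧ d ≠ b ∧ d ≠ c := by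
  obtain ⟨c', d', h1, h2, h3, h4, h5⟩ := h.three hb
  by_cases e : c' = c
  · exact ⟨d', h2, h4, e ▸ h5.symm⟩
  · exact ⟨c', h1, h3, e⟩

theorem other (hb : adj a b) : ∃ c, adj a c ∧ c ≠ b :=
  (h.three hb).elim fun c ⟨_, h1, _, h2, _⟩ => ⟨c, h1, h2⟩

theorem mem_Q (hb : adj a b) (hc : adj a c) (hbc : b ≠ c) (h1 : g • a = a) (h2 : g • b = b) (h3 : g • c = c) :
    g ∈ Q a := by
  obtain ⟨d, hd, hdb, hdc⟩ := h.third hb hc hbc
  refine ⟨h1, fun e he => ?_⟩
  rcases h.four hb hc hd he hbc hdb.symm hdc.symm with rfl | rfl | rfl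
  exacts [h2, h3, by
    rcases h.four hb hc hd (h.inv' h1 hd) hbc hdb.symm hdc.symm with e | e | e
    · exact absurd (smul_left_cancel g (e.trans h2.symm)) hdb
    · exact absurd (smul_left_cancel g (e.trans h3.symm)) hdc
    · exact e]

theorem ne_of (hb : adj a b) (hc : adj a c) (hbc : b ≠ c) (h1 : g • a = a) (h2 : g • b = b) (h3 : g ∉ Q a) :
    g • c ≠ c := fun e => h3 (h.mem_Q hb hc hbc h1 h2 e)

omit h in
theorem ne_of' (hbc : b ≠ c) (h2 : g • b = b) : g • c ≠ b := fun e => hbc (smul_left_cancel g (h2.trans e.symm))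

theorem swap (hb : adj a b) (hc : adj a c) (hd : adj a d) (hbc : b ≠ c) (hbd : b ≠ d) (hcd : c ≠ d)
    (h1 : g • a = a) (h2 : g • b = b) (h3 : g ∉ Q a) : g • c = d := by
  rcases h.four hb hc hd (h.inv' h1 hc) hbc hbd hcd with e | e | e
  exacts [absurd e (ne_of' hbc h2), absurd e (h.ne_of hb hc hbc h1 h2 h3), e]

theorem two (hb : adj a b) (hx : x ∈ T a b) (hy : y ∈ T a b) (h1 : x ∉ Q a) (h2 : y ∉ Q a) : x * y ∈ Q a := by
  obtain ⟨c, d, hc, hd, h3, h4, h5⟩ := h.three hb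
  refine h.mem_Q hb hc h3.symm ((T a b).mul_mem hx hy).1 ((T a b).mul_mem hx hy).2 ?_
  rw [mul_smul, h.swap hb hc hd h3.symm h4.symm h5 hy.1 hy.2 h2, h.swap hb hd hc h4.symm h3.symm h5.symm hx.1 hx.2 h1]

theorem T_le_sup (hb : adj a b) (hx : x ∈ T a b) (h1 : x ∉ Q a) : T a b ≤ Q a ⊔ zpowers x :=
  le_sup_of_two (fun _ h1 _ h2 => h.two hb h1 h2) (zpowers_le.2 hx) fun e => h1 (zpowers_le.1 e)

theorem T_le (hb : adj a b) (hx : x ∈ T a b) (h1 : x ∉ Q a) {K : Subgroup X} (h2 : Q a ≤ K) (h3 : x ∈ K) :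
    T a b ≤ K := (h.T_le_sup hb hx h1).trans (sup_le h2 (zpowers_le.2 h3))

theorem gen (hb : adj a b) {K : Subgroup X} (hK : T a b ≤ K) (hg : g ∈ K) (h1 : g • a = a) (h2 : g • b ≠ b) :
    stabilizer X a ≤ K := fun x hx => by
  have k : ∀ k ∈ K, k • a = a → k • b = x • b → x ∈ K := fun k hk e1 e2 => by
    have : k⁻¹ * x ∈ T a b := mem_T.2 ⟨by
      rw [mul_smul, mem_stabilizer_iff.1 hx, inv_smul_eq_iff, e1], by rw [mul_smul, inv_smul_eq_iff, e2]⟩
    simpa using K.mul_mem hk (hK this)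
  obtain ⟨d, hd, hdb, hdc⟩ := h.third hb (h.inv' h1 hb) h2.symm
  rcases h.four hb (h.inv' h1 hb) hd (h.inv' hx hb) h2.symm hdb.symm hdc.symm with e | e | e
  · exact hK ⟨hx, e⟩
  · exact k g hg h1 e.symm
  · obtain ⟨t, t1, t2, t3⟩ := h.move hb
    refine k (t * g) (K.mul_mem (hK ⟨t1, t2⟩) hg) (by rw [mul_smul, h1, t1]) ?_
    rw [mul_smul, e]
    exact h.swap hb (h.inv' h1 hb) hd h2.symm hdb.symm hdc.symm t1 t2 t3

theorem free' (hb : adj a b) {N : Subgroup X} (h0 : N ≤ T a b) (hn : stabilizer X b ≤ 𝐍 N) (hg : g ∈ 𝐍 N)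
    (h1 : g • a = a) (h2 : g • b ≠ b) : N = ⊥ :=
  h.free hb N h0 (h.gen hb (inf_le_right.trans hn) hg h1 h2) hn

theorem fin_Q (hb : adj a b) : Finite (Q a) := have := h.fin hb; finite_of_le (Q_le_T hb)

theorem card_le (hb : adj a b) {H : Subgroup X} (hH : H ≤ T a b) : Nat.card H ≤ 2 * Nat.card ↥(H ⊓ Q a) := by
  have := h.fin hb
  have := finite_of_le hH
  by_cases e : H ≤ Q a
  · rw [inf_eq_left.2 e]; omega
  · have h1 := card_mul_relIndex (Q a) H
    rw [relIndex_eq_two_of e fun x hx y hy => h.two hb (hH hx) (hH hy), inf_comm] at h1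
    omega

theorem near_symm {k : ℕ} (e : Near adj k a b) : Near adj k b a := e.symm' h.symm

theorem near_path' {n : ℕ} {γ : ℕ → V} (hγ : Path adj n γ) {i j : ℕ} (hij : j ≤ i) (hj : i ≤ n) :
    Near adj (i - j) (γ i) (γ j) := h.near_symm (near_path hγ hij hj)

theorem near_path'' {n : ℕ} {γ : ℕ → V} (hγ : Path adj n γ) {i j k : ℕ} (hi : i ≤ n) (hj : j ≤ n) (h1 : i ≤ j + k)
    (h2 : j ≤ i + k) : Near adj k (γ i) (γ j) := by
  rcases le_total i j with e | e
  · exact (near_path hγ e hj).mono (by omega)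
  · exact (h.near_path' hγ e hi).mono (by omega)

/-- the non-constrained case -/
theorem card_of_not_con (hb : adj a b) (hg : g • b = b) (h1 : g ∈ 𝐂 (Q b)) (h2 : g ∉ Q b) :
    Nat.card (T a b) ≤ 16 := by
  obtain ⟨c, d, hc, hd, h3, h4, h5⟩ := h.three hb
  obtain ⟨k, k1, k2, k3⟩ : ∃ k : X, k • b = b ∧ k ∈ 𝐂 (Q b) ∧ k • a ≠ a := by
    obtain ⟨e, he, he'⟩ : ∃ e, adj b e ∧ g • e ≠ e := by
      by_contra hn
      push Not at hn
      exact h2 ⟨hg, hn⟩
    obtain ⟨l, l1, l2⟩ := h.trans he (h.symm hb)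
    refine ⟨l * g * l⁻¹, by rw [mul_smul, mul_smul, inv_smul_eq_iff.2 l1.symm, hg, l1],
      conj_mem_of_mem_normalizer (le_normalizer_centralizer (h.nQ b) l1) h1, fun e => he' ?_⟩
    rw [← l2, mul_smul, mul_smul, inv_smul_smul] at e
    exact smul_left_cancel l e
  have hN : ((Q a ⊓ Q b) ⊓ Q c) ⊓ Q d = ⊥ := by
    refine h.free' (h.symm hb) (inf_le_left.trans (inf_le_left.trans (inf_le_left.trans (Q_le_T' hb))))
      (le_normalizer_iff_cj.2 fun l hl => cj_le_iff.2 fun x hx => mem_cj.2 ?_)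
      (le_normalizer_of_le_centralizer (zpowers_le.2 (centralizer_anti
        (inf_le_left.trans (inf_le_left.trans inf_le_right)) k2)) (mem_zpowers k)) k1 k3
    have k : ∀ e, adj a e → l * x * l⁻¹ ∈ Q e := fun e he => by
      have h6 := h.inv' (inv_mem hl : l⁻¹ ∈ stabilizer X a) he
      have : x ∈ Q (l⁻¹ • e) := by
        rcases h.four hb hc hd h6 h3.symm h4.symm h5 with e | e | e <;> rw [e]
        exacts [hx.1.1.2, hx.1.2, hx.2]
      simpa using h.conj_Q l this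
    rw [inv_inv]
    exact ⟨⟨⟨h.conj_Q' hl hx.1.1.1, k b hb⟩, k c hc⟩, k d hd⟩
  have e1 := h.card_le hb le_rfl
  rw [inf_eq_right.2 (Q_le_T hb)] at e1
  have e2 := h.card_le (h.symm hb) (Q_le_T' hb)
  have e3 := h.card_le (h.symm hc) (H := Q a ⊓ Q b) (inf_le_left.trans (Q_le_T' hc))
  have e4 := h.card_le (h.symm hd) (H := (Q a ⊓ Q b) ⊓ Q c) (inf_le_left.trans (inf_le_left.trans (Q_le_T' hd)))
  rw [hN, card_bot] at e4
  omega

end Tri

/-- an element fixing the walk but not all neighbours of its end -/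
def Exit (X : Type*) [Group X] {V : Type*} [MulAction X V] (adj : V → V → Prop) (n : ℕ) (γ : ℕ → V) : Prop :=
  ∃ g : X, (∀ i ≤ n, g • γ i = γ i) ∧ g ∉ kQ X adj (γ n)

/-- all short arcs have exits -/
def AT (X : Type*) [Group X] {V : Type*} [MulAction X V] (adj : V → V → Prop) (m : ℕ) : Prop :=
  ∀ l γ, 1 ≤ l → l ≤ m → Arc adj l γ → Exit X adj l γ

/-- exits exist for arcs of each length ending in type `τ` -/
def EX (X : Type*) [Group X] {V : Type*} [MulAction X V] (adj : V → V → Prop) (A : V → Prop) (τ : Prop) (m : ℕ) :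
    Prop := ∀ l ≤ m, ∃ γ, Arc adj l γ ∧ (A (γ l) ↔ τ) ∧ Exit X adj l γ

theorem EX.mono {adj : V → V → Prop} {A : V → Prop} {τ : Prop} {m k : ℕ} (e : EX X adj A τ m) (hk : k ≤ m) :
    EX X adj A τ k := fun l hl => e l (hl.trans hk)

theorem AT.mono {adj : V → V → Prop} {m k : ℕ} (e : AT X adj m) (hk : k ≤ m) : AT X adj k :=
  fun l γ h1 h2 => e l γ h1 (h2.trans hk)

theorem ex_of {adj : V → V → Prop} {A : V → Prop} {τ : Prop} {n i j : ℕ} {γ : ℕ → V} (hγ : Arc adj n γ) (hij : i ≤ j)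
    (hj : j ≤ n) (hA : A (γ j) ↔ τ) {g : X} (h1 : ∀ k, i ≤ k → k ≤ j → g • γ k = γ k) (h2 : g ∉ kQ X adj (γ j)) :
    EX X adj A τ (j - i) := fun l hl => by
  have e : j - l + l = j := by omega
  exact ⟨fun k => γ (j - l + k), hγ.shift (by omega), by simpa only [e] using hA, g,
    fun k hk => h1 _ (by omega) (by omega), by simpa only [e] using h2⟩

theorem AT.seg {adj : V → V → Prop} {m n i j : ℕ} (e : AT X adj m) {γ : ℕ → V} (hγ : Arc adj n γ) (hij : i < j)
    (hj : j ≤ n) (hm : j ≤ i + m) : ∃ g : X, (∀ k, i ≤ k → k ≤ j → g • γ k = γ k) ∧ g ∉ kQ X adj (γ j) := by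
  obtain ⟨g, h1, h2⟩ := e (j - i) _ (by omega) (by omega) (hγ.shift (i := i) (by omega))
  refine ⟨g, fun k k1 k2 => ?_, by simpa only [show i + (j - i) = j by omega] using h2⟩
  simpa only [show i + (k - i) = k by omega] using h1 (k - i) (by omega)

structure Bip (X : Type*) [Group X] {V : Type*} [MulAction X V] (adj : V → V → Prop) (A : V → Prop) : Prop
    extends Tri X adj where
  bip : ∀ {a b}, adj a b → (A a ↔ ¬ A b)
  Ainv : ∀ (g : X) a, A (g • a) ↔ A a
  vt : ∀ {a b}, (A a ↔ A b) → ∃ g : X, g • a = b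

namespace Bip

variable {adj : V → V → Prop} {A : V → Prop} (h : Bip X adj A) {a b c d : V} {g x y : X}
include h

local notation "Q" => kQ X adj
local notation "T" => eT X

theorem AB (hb : adj a b) (hA : A a) : ¬ A b := (h.bip hb).1 hA

theorem BA (hb : adj a b) (hA : ¬ A a) : A b := by_contra fun e => hA ((h.bip hb).2 e)

theorem ex_rev {τ : Prop} {n i j : ℕ} {γ : ℕ → V} (hγ : Arc adj n γ) (hij : i ≤ j)
    (hj : j ≤ n) (hA : A (γ i) ↔ τ) {g : X} (h1 : ∀ k, i ≤ k → k ≤ j → g • γ k = γ k) (h2 : g ∉ Q (γ i)) :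
    EX X adj A τ (j - i) := by
  have := ex_of (A := A) (τ := τ) (hγ.rev' h.symm) (i := n - j) (j := n - i) (by omega) (by omega)
    (by simpa only [show n - (n - i) = i by omega] using hA) (g := g) (fun k k1 k2 => h1 _ (by omega) (by omega))
    (by simpa only [show n - (n - i) = i by omega] using h2)
  exact this.mono (by omega)

theorem seg_rev {m n i j : ℕ} (e : AT X adj m) {γ : ℕ → V} (hγ : Arc adj n γ) (hij : i < j)
    (hj : j ≤ n) (hm : j ≤ i + m) : ∃ g : X, (∀ k, i ≤ k → k ≤ j → g • γ k = γ k) ∧ g ∉ Q (γ i) := by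
  obtain ⟨g, h1, h2⟩ := e.seg (hγ.rev' h.symm) (i := n - j) (j := n - i) (by omega) (by omega) (by omega)
  refine ⟨g, fun k k1 k2 => ?_, by simpa only [show n - (n - i) = i by omega] using h2⟩
  simpa only [show n - (n - k) = k by omega] using h1 (n - k) (by omega) (by omega)

theorem conj_arc {m : ℕ} (e : AT X adj m) : ∀ l ≤ m + 1, ∀ γ γ' : ℕ → V, Arc adj l γ → Arc adj l γ' →
    (A (γ l) ↔ A (γ' l)) → ∃ g : X, ∀ i ≤ l, g • γ i = γ' i := by
  intro l
  induction l with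
  | zero =>
    intro _ γ γ' _ _ hA
    obtain ⟨g, hg⟩ := h.vt hA
    exact ⟨g, fun i hi => by obtain rfl : i = 0 := by omega
                             exact hg⟩
  | succ l ih =>
    intro hl γ γ' h1 h2 hA
    have a1 := h1.1 l (by omega)
    have a2 := h2.1 l (by omega)
    obtain ⟨g, hg⟩ := ih (by omega) γ γ' (h1.mono (by omega)) (h2.mono (by omega))
      (by rw [h.bip a1, h.bip a2, hA])
    have a3 : adj (γ' l) (g • γ (l + 1)) := hg l le_rfl ▸ h.inv g a1
    have key : ∃ k : X, (∀ i ≤ l, k • γ' i = γ' i) ∧ k • g • γ (l + 1) = γ' (l + 1) := by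
      by_cases e0 : g • γ (l + 1) = γ' (l + 1)
      · exact ⟨1, fun _ _ => one_smul _ _, by rw [one_smul, e0]⟩
      rcases l with _ | l
      · obtain ⟨k, k1, k2⟩ := h.trans a3 a2
        exact ⟨k, fun i hi => by obtain rfl : i = 0 := by omega
                                 exact k1, k2⟩
      · obtain ⟨k, k1, k2⟩ := e (l + 1) γ' (by omega) (by omega) (h2.mono (by omega))
        refine ⟨k, k1, h.swap (h.symm (h2.1 l (by omega))) a3 a2 (fun e => ?_) (h2.2 l le_rfl).symm e0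
          (k1 _ le_rfl) (k1 _ (by omega)) k2⟩
        rw [← hg l (by omega)] at e
        exact h1.2 l le_rfl (smul_left_cancel g e).symm
    obtain ⟨k, k1, k2⟩ := key
    refine ⟨k * g, fun i hi => ?_⟩
    rcases Nat.lt_or_ge i (l + 1) with e | e
    · rw [mul_smul, hg i (by omega), k1 i (by omega)]
    · obtain rfl : i = l + 1 := by omega
      rw [mul_smul, k2]

theorem at_of {m : ℕ} (h1 : EX X adj A True m) (h2 : EX X adj A False m) : AT X adj m := by
  induction m with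
  | zero => intro l γ e1 e2; omega
  | succ m ih =>
    have e := ih (h1.mono (by omega)) (h2.mono (by omega))
    intro l γ l1 l2 hγ
    obtain ⟨γ', a1, a2, k, k1, k2⟩ : ∃ γ', Arc adj l γ' ∧ (A (γ' l) ↔ A (γ l)) ∧ Exit X adj l γ' := by
      by_cases hA : A (γ l)
      · obtain ⟨γ', a1, a2, a3⟩ := h1 l l2
        exact ⟨γ', a1, by tauto, a3⟩
      · obtain ⟨γ', a1, a2, a3⟩ := h2 l l2
        exact ⟨γ', a1, by tauto, a3⟩
    obtain ⟨g, hg⟩ := h.conj_arc e l l2 γ' γ a1 hγ a2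
    refine ⟨g * k * g⁻¹, fun i hi => ?_, by rwa [← hg l le_rfl, h.conj_Q_iff]⟩
    rw [← hg i hi, mul_smul, mul_smul, inv_smul_smul, k1 i hi]

theorem at_one : AT X adj 1 := fun l γ h1 h2 hγ => by
  obtain rfl : l = 1 := by omega
  obtain ⟨g, g1, g2, g3⟩ := h.move (h.symm (hγ.1 0 (by omega)))
  exact ⟨g, fun i hi => by interval_cases i <;> assumption, g3⟩

end Bip

end H27.GA
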