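import Cfsg.Agent.H27.GA1

/-! Trivalent amalgams with `Ω₁Z(T)` central at the vertices of type `B` (`GA.GC`): the groups `Z a`, balls `Vb`,
critical walks, and the cases of even critical distance. -/

set_option autoImplicit false

namespace H27.GA

open Cfsg Subgroup MulAction H26
open scoped Pointwise commutatorElement

variable {X : Type*} [Group X] {V : Type*} [MulAction X V]

theorem comm_self_inv {x u : X} (hu : u * u = 1) : ⁅x, u⁆ = x * u * x⁻¹ * u := by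
  rw [commutatorElement_def, inv_eq_self_of hu]

theorem mem_oz {T : Subgroup X} {x : X} : x ∈ oz T ↔ x ∈ T ∧ (∀ y ∈ T, Commute y x) ∧ x * x = 1 := by
  rw [oz, mem_omegaOne_iff (center_le_centralizer_center T), sq]
  exact ⟨fun h => ⟨h.1.1, h.1.2, h.2⟩, fun h => ⟨⟨h.1, h.2.1⟩, h.2.2⟩⟩

/-- the group generated by the `Z u`, `u` in the ball of radius `k` -/
def Vb (X : Type*) [Group X] {V : Type*} [MulAction X V] (adj : V → V → Prop) (k : ℕ) (v : V) : Subgroup X :=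
  ⨆ (u : V) (_ : Near adj k u v), aZ X adj u

/-- no pair closer than `n` is critical -/
def MB (X : Type*) [Group X] {V : Type*} [MulAction X V] (adj : V → V → Prop) (n : ℕ) : Prop :=
  ∀ k u v, k < n → Near adj k u v → aZ X adj u ≤ kQ X adj v

def Crit (X : Type*) [Group X] {V : Type*} [MulAction X V] (adj : V → V → Prop) (n : ℕ) (γ : ℕ → V) : Prop :=
  Path adj n γ ∧ ¬ aZ X adj (γ 0) ≤ kQ X adj (γ n)

structure GC (X : Type*) [Group X] {V : Type*} [MulAction X V] (adj : V → V → Prop) (A : V → Prop) : Prop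
    extends Bip X adj A where
  con : ∀ a (g : X), g • a = a → g ∈ 𝐂 (kQ X adj a) → g ∈ kQ X adj a
  cen : ∀ {a b}, adj a b → ¬ A b → stabilizer X b ≤ 𝐂 (oz (eT X a b))
  nb : ∀ a, ∃ b, adj a b

theorem Z_le_Vb {adj : V → V → Prop} {k : ℕ} {u v : V} (h : Near adj k u v) : aZ X adj u ≤ Vb X adj k v :=
  le_iSup₂ (f := fun u (_ : Near adj k u v) => aZ X adj u) u h

theorem Vb_le {adj : V → V → Prop} {k : ℕ} {v : V} {K : Subgroup X} (h : ∀ u, Near adj k u v → aZ X adj u ≤ K) :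
    Vb X adj k v ≤ K := iSup₂_le h

theorem Vb_le_Vb {adj : V → V → Prop} {k j l : ℕ} {v w : V} (h : Near adj j v w) (hl : k + j ≤ l) :
    Vb X adj k v ≤ Vb X adj l w := Vb_le fun _ hu => Z_le_Vb ((hu.trans h).mono hl)

theorem MB.Vb_le_Q {adj : V → V → Prop} {n k j : ℕ} {v w : V} (hn : MB X adj n) (h : Near adj j v w)
    (hl : k + j < n) : Vb X adj k v ≤ kQ X adj w := Vb_le fun _ hu => hn _ _ _ hl (hu.trans h)

namespace GC

variable {adj : V → V → Prop} {A : V → Prop} (h : GC X adj A) {a b c d : V} {g x y u v w : X}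
include h

local notation "Q" => kQ X adj
local notation "T" => eT X
local notation "Z" => aZ X adj

theorem oz_le_Q (hb : adj a b) : oz (T a b) ≤ Q a := fun x hx =>
  h.con a x (mem_oz.1 hx).1.1 fun y hy => (mem_oz.1 hx).2.1 y (Q_le_T hb hy)

theorem Z_le_Q (a : V) : Z a ≤ Q a := iSup₂_le fun _ hb => h.oz_le_Q hb

omit h in
theorem Q_le_cZ (a : V) : Q a ≤ 𝐂 (Z a) :=
  le_centralizer_iSup fun _ => le_centralizer_iSup fun hb => (Q_le_T hb).trans (le_centralizer_omegaOne_center _)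

omit h in
theorem cZ (hx : x ∈ Q a) (hu : u ∈ Z a) : Commute x u := (Q_le_cZ a hx u hu).symm

theorem sqZ (hu : u ∈ Z a) : u * u = 1 := by
  have : IsElementaryAbelian 2 (Z a) := elemAb_iSup (fun b => elemAb_iSup (fun _ => elemAb_omegaOne_center _)
    fun _ _ => (omegaOne_le _ _).trans (inf_le_left.trans (le_centralizer_omegaOne_center _)))
    fun b c => iSup_le fun hb => (h.oz_le_Q hb).trans ((Q_le_cZ a).trans (centralizer_anti
      (le_iSup (f := fun b => ⨆ (_ : adj a b), oz (T a b)) c)))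
  rw [← sq]; exact this.2 u hu

theorem cj_Z_le (g : X) (a : V) : cj g (Z a) ≤ Z (g • a) :=
  cj_le_iff.2 (iSup₂_le fun b hb => cj_le_iff.1 (by
    rw [cj_omegaOne_center, cj_eT]; exact Am.oz_le_Z (h.inv g hb)))

theorem cj_Z (g : X) (a : V) : cj g (Z a) = Z (g • a) :=
  le_antisymm (h.cj_Z_le g a) (le_cj_iff.2 (by simpa using h.cj_Z_le g⁻¹ (g • a)))

theorem conj_Z (g : X) (hu : u ∈ Z a) : g * u * g⁻¹ ∈ Z (g • a) := h.cj_Z g a ▸ conj_mem_cj g hu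

theorem conj_Z_iff (g : X) : g * u * g⁻¹ ∈ Z (g • a) ↔ u ∈ Z a := by rw [← h.cj_Z, conj_mem_cj_iff]

theorem conj_Z' (hg : g • a = b) (hu : u ∈ Z a) : g * u * g⁻¹ ∈ Z b := hg ▸ h.conj_Z g hu

theorem conj_nZ (hg : g • a = b) (hu : u ∉ Z a) : g * u * g⁻¹ ∉ Z b := by rwa [← hg, h.conj_Z_iff]

theorem nZ (a : V) : stabilizer X a ≤ 𝐍 (Z a) := fun g hg => cj_eq_iff.1 (by rw [h.cj_Z, mem_stabilizer_iff.1 hg])

theorem cj_Vb (g : X) (k : ℕ) (a : V) : cj g (Vb X adj k a) = Vb X adj k (g • a) := by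
  have : ∀ (g : X) a, cj g (Vb X adj k a) ≤ Vb X adj k (g • a) := fun g a =>
    cj_le_iff.2 (Vb_le fun u hu => cj_le_iff.1 (h.cj_Z g u ▸ Z_le_Vb (hu.smul' h.inv g)))
  exact le_antisymm (this g a) (le_cj_iff.2 (by simpa using this g⁻¹ (g • a)))

theorem conj_Vb {k : ℕ} (hg : g • a = b) (hu : u ∈ Vb X adj k a) : g * u * g⁻¹ ∈ Vb X adj k b :=
  hg ▸ h.cj_Vb g k a ▸ conj_mem_cj g hu

theorem nVb (k : ℕ) (a : V) : stabilizer X a ≤ 𝐍 (Vb X adj k a) :=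
  fun g hg => cj_eq_iff.1 (by rw [h.cj_Vb, mem_stabilizer_iff.1 hg])

theorem ZB_eq (hb : adj a b) (hB : ¬ A b) : Z b = oz (T a b) := by
  refine le_antisymm (iSup₂_le fun c hc => ?_) (by rw [eT_comm]; exact Am.oz_le_Z (h.symm hb))
  obtain ⟨g, g1, rfl⟩ := h.trans (h.symm hb) hc
  rw [eT_smul g1, oz, ← cj_omegaOne_center, eT_comm b a, cj_eq_of_mem_centralizer (h.cen hb hB g1)]

theorem ZB_le (hb : adj a b) (hB : ¬ A b) : Z b ≤ Z a := h.ZB_eq hb hB ▸ Am.oz_le_Z hb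

theorem cZB (hB : ¬ A b) (hg : g • b = b) (hu : u ∈ Z b) : Commute g u := by
  obtain ⟨a, ha⟩ := h.nb b
  rw [h.ZB_eq (h.symm ha) hB] at hu
  exact (h.cen (h.symm ha) hB hg u hu).symm

theorem mem_ZB (hb : adj a b) (hB : ¬ A b) (h1 : u ∈ T a b) (h2 : ∀ x ∈ T a b, Commute x u) (h3 : u * u = 1) :
    u ∈ Z b := h.ZB_eq hb hB ▸ mem_oz.2 ⟨h1, h2, h3⟩

theorem mem_ZB' (hb : adj a b) (hB : ¬ A b) (h1 : u ∈ Q a) (h2 : ∀ x ∈ Q a, Commute x u) (h3 : u * u = 1)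
    (hx : x ∈ T a b) (hx' : x ∉ Q a) (hc : Commute x u) : u ∈ Z b :=
  h.mem_ZB hb hB (Q_le_T hb h1) (fun _ hy => mem_centralizer_singleton_iff.1 (h.T_le hb hx hx'
    (K := centralizer {u}) (fun q hq => mem_centralizer_singleton_iff.2 (h2 q hq))
    (mem_centralizer_singleton_iff.2 hc) hy)) h3

theorem fixZ (hb : adj a b) (hA : A a) (hu : u ∈ Z a) (hx : x ∈ T a b) (hx' : x ∉ Q a) (hc : Commute x u) :
    u ∈ Z b := h.mem_ZB' hb (h.AB hb hA) (h.Z_le_Q a hu) (fun _ hq => cZ hq hu) (h.sqZ hu) hx hx' hc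

theorem mem_Q_of (hb : adj a b) (hA : A a) (hu : u ∈ Z a) (hu' : u ∉ Z b) (hx : x ∈ T a b) (hc : Commute x u) :
    x ∈ Q a := by_contra fun e => hu' (h.fixZ hb hA hu hx e hc)

/-- commutators of a central involution of `Q a` -/
theorem comm_mem (hb : adj a b) (hB : ¬ A b) (h1 : u ∈ Q a) (h2 : ∀ x ∈ Q a, Commute x u) (h3 : u * u = 1)
    (hx : x ∈ T a b) : ⁅x, u⁆ ∈ Z b := by
  by_cases e : x ∈ Q a
  · rw [commutatorElement_eq_one_iff_commute.2 (h2 x e)]; exact one_mem _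
  have h4 := h.conj_Q' hx.1 h1
  have h5 : ∀ q ∈ Q a, Commute q (x * u * x⁻¹) := fun q hq => by
    have := (h2 _ (h.conj_Q' (inv_mem hx).1 hq)).conj x
    simpa [mul_assoc] using this
  have h6 := h2 _ h4
  rw [comm_self_inv h3]
  refine h.mem_ZB' hb hB (mul_mem h4 h1) (fun q hq => (h5 q hq).mul_right (h2 q hq)) ?_ hx e (commute_of_conj_eq ?_)
  · calc x * u * x⁻¹ * u * (x * u * x⁻¹ * u) = x * u * x⁻¹ * (u * (x * u * x⁻¹)) * u := by group
      _ = x * (u * u) * x⁻¹ * (u * u) := by rw [← h6.eq]; group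
      _ = 1 := by rw [h3]; group
  · calc x * (x * u * x⁻¹ * u) * x⁻¹ = (x * x * u * (x * x)⁻¹) * (x * u * x⁻¹) := by group
      _ = _ := by rw [conj_eq_of_commute (h2 _ (h.two hb hx hx e e)), h6.eq]

theorem commZ (hb : adj a b) (hA : A a) (hu : u ∈ Z a) (hx : x ∈ T a b) : ⁅x, u⁆ ∈ Z b :=
  h.comm_mem hb (h.AB hb hA) (h.Z_le_Q a hu) (fun _ hq => cZ hq hu) (h.sqZ hu) hx

theorem Z_ne (hb : adj a b) (hB : ¬ A b) : ∃ z ∈ Z b, z ≠ 1 := by
  have := h.fin hb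
  obtain ⟨g, g1, g2, g3⟩ := h.move hb
  have : T a b ≠ ⊥ := fun e => g3 (by
    have : g ∈ T a b := ⟨g1, g2⟩
    rw [e, mem_bot] at this; rw [this]; exact one_mem _)
  rw [h.ZB_eq hb hB]
  exact (bot_or_exists_ne_one _).resolve_left (omegaOne_center_ne_bot (h.pg hb) this)

theorem Z_ne' (hB : ¬ A b) : ∃ z ∈ Z b, z ≠ 1 := (h.nb b).elim fun _ ha => h.Z_ne (h.symm ha) hB

theorem Z_ne_bot (a : V) : Z a ≠ ⊥ := fun e => by
  obtain ⟨b, hb⟩ := h.nb a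
  by_cases hA : A a
  · obtain ⟨z, h1, h2⟩ := h.Z_ne hb (h.AB hb hA)
    exact h2 (mem_bot.1 (e ▸ h.ZB_le hb (h.AB hb hA) h1))
  · obtain ⟨z, h1, h2⟩ := h.Z_ne' hA
    exact h2 (mem_bot.1 (e ▸ h1))

theorem Vb_ne_bot (k : ℕ) (a : V) : Vb X adj k a ≠ ⊥ := fun e =>
  h.Z_ne_bot a (le_bot_iff.1 (e ▸ Z_le_Vb (.refl _ _)))

theorem infZ (hb : adj a b) (hc : adj a c) (hA : A a) (hbc : b ≠ c) (h1 : u ∈ Z b) (h2 : u ∈ Z c) : u = 1 := by
  obtain ⟨g, g1, g2, g3⟩ := h.move hc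
  have hB := h.AB hb hA
  have := h.free' hb (N := Z b ⊓ Z c) (inf_le_left.trans ((h.Z_le_Q b).trans (Q_le_T' (h.symm hb))))
    (le_normalizer_of_le_centralizer fun x hx y hy => (h.cZB hB hx hy.1).symm)
    (le_normalizer_of_le_centralizer (H := stabilizer X c) (K := Z b ⊓ Z c)
      (fun x hx y hy => (h.cZB (h.AB hc hA) hx hy.2).symm) g2)
    g1 (h.ne_of hc hb hbc.symm g1 g2 g3)
  exact mem_bot.1 (this ▸ (⟨h1, h2⟩ : u ∈ Z b ⊓ Z c))

theorem fixB (hb : adj a b) (hA : A a) (hu : u ∈ Z b) (h1 : u ≠ 1) (hx : x • a = a) (hc : Commute x u) :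
    x • b = b := by_contra fun e =>
  h1 (h.infZ (h.inv' hx hb) hb hA e (conj_eq_of_commute hc ▸ h.conj_Z x hu) hu)

theorem ZA_le (hb : adj a b) (hc : adj a c) (hA : A a) (hbc : b ≠ c) : Z a ≤ Z b ⊔ Z c := by
  refine iSup₂_le fun e he => ?_
  rw [← h.ZB_eq he (h.AB he hA)]
  by_cases e1 : e = b
  · exact e1 ▸ le_sup_left
  by_cases e2 : e = c
  · exact e2 ▸ le_sup_right
  obtain ⟨g, g1, g2, g3⟩ := h.move hb
  intro w hw
  have h1 := h.conj_Z' (h.swap hb he hc (Ne.symm e1) hbc e2 g1 g2 g3) hw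
  have h2 := h.commZ hb hA (h.ZB_le he (h.AB he hA) hw) ⟨g1, g2⟩
  have : w = (g * w * g⁻¹)⁻¹ * ⁅g, w⁆ := by rw [comm_self_inv (h.sqZ hw)]; group
  rw [this]
  exact mul_mem (mem_sup_right (inv_mem h1)) (mem_sup_left h2)

theorem split (hb : adj a b) (hc : adj a c) (hA : A a) (hbc : b ≠ c) (hu : u ∈ Z a) :
    ∃ v ∈ Z b, ∃ w ∈ Z c, v * w = u :=
  (mem_sup_of_le_normalizer (le_normalizer_of_le_centralizer fun _ hx _ hy =>
    (cZ (h.Z_le_Q a (h.ZB_le hb (h.AB hb hA) hx)) (h.ZB_le hc (h.AB hc hA) hy)).symm)).1 (h.ZA_le hb hc hA hbc hu)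

theorem exists_ZA (hb : adj a b) (hA : A a) : ∃ u ∈ Z a, u ∉ Z b := by
  obtain ⟨c, hc, hcb⟩ := h.other hb
  obtain ⟨z, h1, h2⟩ := h.Z_ne hc (h.AB hc hA)
  exact ⟨z, h.ZB_le hc (h.AB hc hA) h1, fun e => h2 (h.infZ hc hb hA hcb h1 e)⟩

theorem mem_Q_of_cZ (hb : adj a b) (hA : A a) (hx : x ∈ T a b) (hc : ∀ u ∈ Z a, Commute x u) : x ∈ Q a :=
  (h.exists_ZA hb hA).elim fun u hu => h.mem_Q_of hb hA hu.1 hu.2 hx (hc u hu.1)

theorem exists_Q (hb : adj a b) : ∃ x ∈ Q a, x ∉ Q b := by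
  by_contra hn
  push Not at hn
  by_cases e : Q b ≤ Q a
  · have := h.free hb (Q a) (Q_le_T hb) (h.nQ a) (le_antisymm hn e ▸ h.nQ b)
    exact h.Z_ne_bot a (le_bot_iff.1 (this ▸ h.Z_le_Q a))
  · obtain ⟨y, y1, y2⟩ := SetLike.not_le_iff_exists.1 e
    obtain ⟨g, g1, g2, g3⟩ := h.move (h.symm hb)
    exact g3 (h.T_le hb (Q_le_T' (h.symm hb) y1) y2 hn y1 ⟨g2, g1⟩)

theorem Z_le_cm (hb : adj a b) (hA : A a) (hx : x ∈ T a b) : Z a ≤ cm (Z b) x := fun _ hu =>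
  ⟨h.nZ b (Qb (h.Z_le_Q a hu) hb), h.commZ hb hA hu hx⟩

/-- the critical distance is at least two -/
theorem Z_le_Q_adj (hb : adj a b) : Z a ≤ Q b := by
  by_cases hA : A a
  swap
  · exact (h.ZB_le (h.symm hb) hA).trans (h.Z_le_Q b)
  have hB := h.AB hb hA
  by_contra hn
  obtain ⟨u, hu, hu'⟩ := SetLike.not_le_iff_exists.1 hn
  obtain ⟨a', a'', h1, h2, h3, h4, h5⟩ := h.three (h.symm hb)
  obtain ⟨g, g1, g2⟩ := h.trans (h.symm hb) h1
  have hv := h.conj_Z' g2 hu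
  have hv' : g * u * g⁻¹ ∉ Q b := by rwa [← g1, h.conj_Q_iff]
  set v := g * u * g⁻¹
  have u1 := h.Z_le_Q a hu
  have v1 := h.Z_le_Q a' hv
  have k : ∀ q ∈ Q b, u * v ∈ cm (Z b) q := fun q hq => mul_mem (h.Z_le_cm hb hA (Q_le_T' (h.symm hb) hq) hu)
    (h.Z_le_cm (h.symm h1) (h.BA h1 hB) (Q_le_T' h1 hq) hv)
  have f : (u * v) • b = b := by rw [mul_smul, Qb v1 (h.symm h1), Qb u1 hb]
  have := h.con b (u * v * (u * v)) (by rw [mul_smul, f, f]) fun q hq => by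
    have h6 := (k q hq).2
    have h7 : ⁅q, u * v * (u * v)⁆ = ⁅q, u * v⁆ * (u * v * ⁅q, u * v⁆ * (u * v)⁻¹) := by
      simp only [commutatorElement_def]; group
    rw [conj_eq_of_commute (h.cZB hB f h6), h.sqZ h6] at h7
    exact commutatorElement_eq_one_iff_mul_comm.1 h7
  have e1 : u • a'' = a' := h.swap (h.symm hb) h2 h1 h4.symm h3.symm h5.symm (Qb u1 hb) (Qa u1) hu'
  have e2 : u • a' = a'' := h.swap (h.symm hb) h1 h2 h3.symm h4.symm h5 (Qb u1 hb) (Qa u1) hu'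
  have e3 : v • a = a'' := h.swap h1 (h.symm hb) h2 h3 h5 h4.symm (Qb v1 (h.symm h1)) (Qa v1) hv'
  have e4 := Qb this (h.symm hb)
  rw [mul_smul, mul_smul u v a, e3, e1, mul_smul, Qa v1, e2] at e4
  exact h4 e4

theorem exists_crit (hb : adj a b) : ∃ n γ, MB X adj n ∧ Crit X adj n γ := by
  classical
  have : ∃ n u v, Near adj n u v ∧ ¬ Z u ≤ Q v := by
    by_contra hn
    push Not at hn
    let N : V → Subgroup X := fun a => ⨆ k, Vb X adj k a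
    have h3 : ∀ a b, adj a b → N a ≤ N b := fun a b hab => iSup_le fun k =>
      (Vb_le_Vb (.one hab) le_rfl).trans (le_iSup (fun k => Vb X adj k b) (k + 1))
    have h4 : ∀ a, stabilizer X a ≤ 𝐍 (N a) := fun a => le_normalizer_iSup fun k => h.nVb k a
    have h5 := h.free hb (N a) ((iSup_le fun k => Vb_le fun u hu => hn k u a hu).trans (Q_le_T hb)) (h4 a)
      (le_antisymm (h3 a b hb) (h3 b a (h.symm hb)) ▸ h4 b)
    exact h.Vb_ne_bot 0 a (le_bot_iff.1 (h5 ▸ le_iSup (fun k => Vb X adj k a) 0))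
  obtain ⟨u, v, h1, h2⟩ := Nat.find_spec this
  have hm : MB X adj (Nat.find this) := fun k u v hk e => by_contra fun hn => Nat.find_min this hk ⟨u, v, e, hn⟩
  obtain ⟨m, m1, γ, m2, rfl, rfl⟩ := h1.exists_path
  obtain rfl : m = Nat.find this := le_antisymm m1 (not_lt.1 fun e => h2 (hm m _ _ e (near_path m2 (Nat.zero_le _) le_rfl)))
  exact ⟨_, γ, hm, m2, h2⟩

theorem Vb_comm {n k l j : ℕ} (hn : MB X adj n) (e : Near adj j a b) (hl : k + j + l < n) (hx : x ∈ Vb X adj k a)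
    (hy : y ∈ Vb X adj l b) : Commute x y :=
  ((le_centralizer_iSup fun u => le_centralizer_iSup fun hu => (hn.Vb_le_Q (e.trans (h.near_symm hu))
    (by omega)).trans (Q_le_cZ u) : Vb X adj k a ≤ 𝐂 (Vb X adj l b)) hx y hy).symm

omit h in
theorem Z_le_V (hb : adj a b) : Z a ≤ Vb X adj 1 b := Z_le_Vb (.one hb)

theorem V_le (hB : ¬ A b) {K : Subgroup X} (e : ∀ a, adj b a → Z a ≤ K) : Vb X adj 1 b ≤ K := Vb_le fun u hu => by
  rcases hu.of_one with rfl | hu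
  · obtain ⟨a, ha⟩ := h.nb u
    exact (h.ZB_le (h.symm ha) hB).trans (e a ha)
  · exact e u (h.symm hu)

theorem W_le {K : Subgroup X} (e : ∀ b, adj a b → Vb X adj 1 b ≤ K) : Vb X adj 2 a ≤ K :=
  Vb_le fun u hu => by
    rcases (h.near_symm hu).of_succ with rfl | ⟨w, h1, h2⟩
    · obtain ⟨b, hb⟩ := h.nb a
      exact (Z_le_V hb).trans (e b hb)
    · exact (Z_le_Vb (h.near_symm h2)).trans (e w h1)

theorem commV (hB : ¬ A b) (hx : x ∈ Q b) (hv : v ∈ Vb X adj 1 b) : ⁅x, v⁆ ∈ Z b :=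
  (h.V_le hB (K := cm (Z b) x) (fun _ ha => h.Z_le_cm (h.symm ha) (h.BA ha hB) (Q_le_T' ha hx)) hv).2

variable {n : ℕ} {γ : ℕ → V} (hn : MB X adj n) (hc : Crit X adj n γ)
include hn hc

theorem two_le : 2 ≤ n := by
  by_contra e
  rcases (by omega : n = 0 ∨ n = 1) with rfl | rfl
  exacts [hc.2 (h.Z_le_Q _), hc.2 (h.Z_le_Q_adj (hc.1 0 (by omega)))]

omit h in
theorem crit_arc : Arc adj n γ := ⟨hc.1, fun i hi e => hc.2 (hn (i + (n - (i + 2))) _ _ (by omega)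
  ((near_path hc.1 (Nat.zero_le i) (by omega)).trans (e ▸ near_path hc.1 hi le_rfl)))⟩

theorem crit_A : A (γ 0) := by_contra fun e => by
  have := h.two_le hn hc
  exact hc.2 ((h.ZB_le (h.symm (hc.1 0 (by omega))) e).trans (hn _ _ _ (by omega) (near_path hc.1 (by omega) le_rfl)))

omit hc in
theorem ZQ (hγ : Path adj n γ) {i j : ℕ} (hi : i ≤ n) (hj : j ≤ n) (h1 : i < j + n) (h2 : j < i + n) :
    Z (γ i) ≤ Q (γ j) := hn (n - 1) _ _ (by omega) (h.near_path'' hγ hi hj (by omega) (by omega))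

end GC

end H27.GA
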