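import Cfsg.Agent.H27.GA2

/-! Trivalent amalgams `GA.GC`: even critical distance (`even_two`, `even_big`), and the common facts for odd critical
distance (`odd_sym`, `odd_n1`, `YP`, `V8`). -/

set_option autoImplicit false

namespace H27.GA

open Cfsg Subgroup MulAction H26
open scoped Pointwise commutatorElement

variable {X : Type*} [Group X] {V : Type*} [MulAction X V]

/-- `Z b` has order two at the vertices of type `B` -/
def NOne (X : Type*) [Group X] {V : Type*} [MulAction X V] (adj : V → V → Prop) (A : V → Prop) : Prop :=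
  ∀ b, ¬ A b → ∀ u ∈ aZ X adj b, ∀ v ∈ aZ X adj b, u ≠ 1 → v ≠ 1 → u = v

/-- the kernel on the ball of radius two -/
def DD (X : Type*) [Group X] {V : Type*} [MulAction X V] (adj : V → V → Prop) (b : V) : Subgroup X :=
  kQ X adj b ⊓ ⨅ (a : V) (_ : adj b a), kQ X adj a

theorem mem_DD {adj : V → V → Prop} {b : V} {x : X} :
    x ∈ DD X adj b ↔ x ∈ kQ X adj b ∧ ∀ a, adj b a → x ∈ kQ X adj a := by simp [DD, mem_iInf]

def V8 (X : Type*) [Group X] {V : Type*} [MulAction X V] (adj : V → V → Prop) (A : V → Prop) : Prop :=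
  ∀ b a a', ¬ A b → adj b a → adj b a' → a ≠ a' → Vb X adj 1 b ≤ aZ X adj a ⊔ aZ X adj a'

/-- elements of `V b` fixed by the edge group modulo `Z b` -/
def YP (X : Type*) [Group X] {V : Type*} [MulAction X V] (adj : V → V → Prop) (b a : V) (v : X) : Prop :=
  v ∈ Vb X adj 1 b ∧ ∀ x ∈ eT X b a, ⁅x, v⁆ ∈ aZ X adj b

namespace GC

variable {adj : V → V → Prop} {A : V → Prop} (h : GC X adj A) {a b c d a' : V} {g x y u v w : X}
include h

local notation "Q" => kQ X adj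
local notation "T" => eT X
local notation "Z" => aZ X adj
local notation "D" => DD X adj
local notation "V1" => Vb X adj 1

theorem card_T (hb : adj a b) (hd : adj c d) (hA : A a ↔ A c) : Nat.card (T a b) = Nat.card (T c d) := by
  obtain ⟨g, rfl⟩ := h.vt hA
  obtain ⟨k, k1, rfl⟩ := h.trans (h.inv g hb) hd
  rw [← card_cj (k * g), cj_eT, mul_smul, mul_smul, k1]

theorem n1_of (hb : adj a b) (hA : A a) (e : ∀ u ∈ Z a, ∀ v ∈ Z a, u ∉ Z b → v ∉ Z b → u * v ∈ Z b) :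
    NOne X adj A := fun b' hB u hu v hv h1 h2 => by
  obtain ⟨c, hc, hcb⟩ := h.other hb
  have hC := h.AB hc hA
  obtain ⟨g, rfl⟩ := h.vt (a := c) (b := b') (by tauto)
  obtain ⟨u, hu', rfl⟩ := mem_cj'.1 (h.cj_Z g c ▸ hu)
  obtain ⟨v, hv', rfl⟩ := mem_cj'.1 (h.cj_Z g c ▸ hv)
  have k : ∀ u ∈ Z c, g * u * g⁻¹ ≠ 1 → u ∉ Z b := fun u hu h1 e => h1 (by simp [h.infZ hc hb hA hcb hu e])
  have := h.infZ hc hb hA hcb (mul_mem hu' hv') (e u (h.ZB_le hc hC hu') v (h.ZB_le hc hC hv') (k u hu' h1) (k v hv' h2))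
  rw [eq_inv_of_mul_eq_one_left this, inv_eq_self_of (h.sqZ hv')]

theorem twoZ (h1 : NOne X adj A) (hb : adj a b) (hA : A a) (hu : u ∈ Z a) (hv : v ∈ Z a) (hu' : u ∉ Z b)
    (hv' : v ∉ Z b) : u * v ∈ Z b := by
  obtain ⟨c, hc, hcb⟩ := h.other hb
  obtain ⟨u1, a1, u2, a2, rfl⟩ := h.split hb hc hA hcb.symm hu
  obtain ⟨v1, b1, v2, b2, rfl⟩ := h.split hb hc hA hcb.symm hv
  obtain rfl := h1 c (h.AB hc hA) u2 a2 v2 b2 (fun e => hu' (by simpa [e] using a1)) fun e => hv' (by simpa [e] using b1)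
  have := cZ (h.Z_le_Q a (h.ZB_le hb (h.AB hb hA) b1)) (h.ZB_le hc (h.AB hc hA) a2)
  have e : u1 * u2 * (v1 * u2) = u1 * v1 * (u2 * u2) := by rw [mul_assoc, ← mul_assoc u2, ← this.eq]; group
  rw [e, h.sqZ a2, mul_one]
  exact mul_mem a1 b1

theorem Z_le_of (h1 : NOne X adj A) (hb : adj a b) (hA : A a) (hu : u ∈ Z a) (hu' : u ∉ Z b) {K : Subgroup X}
    (h2 : Z b ≤ K) (h3 : u ∈ K) : Z a ≤ K :=
  (le_sup_of_two (fun _ e1 _ e2 => h.twoZ h1 hb hA e1 e2) (zpowers_le.2 hu) fun e => hu' (zpowers_le.1 e)).trans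
    (sup_le h2 (zpowers_le.2 h3))

omit h in
theorem ZB_le_of (h1 : NOne X adj A) (hB : ¬ A b) (hu : u ∈ Z b) (hu' : u ≠ 1) {K : Subgroup X} (h3 : u ∈ K) :
    Z b ≤ K := fun v hv => by
  by_cases e : v = 1
  · exact e ▸ K.one_mem
  · exact h1 b hB v hv u hu e hu' ▸ h3

theorem card_ZA (h1 : NOne X adj A) (hb : adj a b) (hA : A a) : Nat.card (Z a) ≤ 4 := by
  have := h.fin_Q hb
  have := finite_of_le (h.Z_le_Q a)
  obtain ⟨u, u1, u2⟩ := h.exists_ZA hb hA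
  have h2 := card_mul_relIndex_of_le (h.ZB_le hb (h.AB hb hA))
  rw [relIndex_eq_two_of (fun e => u2 (e u1)) fun x hx y hy => h.twoZ h1 hb hA hx hy] at h2
  obtain ⟨z, z1, z2⟩ := h.Z_ne hb (h.AB hb hA)
  have : Nat.card (Z b) ≤ Nat.card (zpowers z) := by
    have : Finite (zpowers z) := finite_of_le (zpowers_le.2 (h.ZB_le hb (h.AB hb hA) z1))
    exact card_le_of_le (ZB_le_of h1 (h.AB hb hA) z1 z2 (mem_zpowers z))
  rw [Nat.card_zpowers, orderOf_eq_prime (p := 2) (by rw [sq, h.sqZ z1]) z2] at this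
  omega

theorem nD (b : V) : stabilizer X b ≤ 𝐍 (D b) := le_normalizer_iff_cj.2 fun g hg => cj_le_iff.2 fun x hx =>
  mem_cj.2 (by
    rw [inv_inv]
    exact mem_DD.2 ⟨h.conj_Q' hg (mem_DD.1 hx).1, fun a ha => by
      simpa using h.conj_Q g ((mem_DD.1 hx).2 _ (h.inv' (inv_mem hg : g⁻¹ ∈ stabilizer X b) ha))⟩)

theorem cD (hB : ¬ A b) (hx : x ∈ D b) (hv : v ∈ V1 b) : Commute x v :=
  (mem_centralizer_singleton_iff.1 (h.V_le hB (K := centralizer {x}) (fun a ha _ hu =>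
    mem_centralizer_singleton_iff.2 (cZ ((mem_DD.1 hx).2 a ha) hu).symm) hv)).symm

theorem card_D (hb : adj b a) {H : Subgroup X} (h1 : H ≤ Q b) (h2 : H ≤ Q a) :
    Nat.card H ≤ 4 * Nat.card ↥(H ⊓ D b) := by
  obtain ⟨c, d, hc, hd, h3, h4, h5⟩ := h.three hb
  have e3 := h.card_le (h.symm hc) (h1.trans (Q_le_T' hc))
  have e4 := h.card_le (h.symm hd) (H := H ⊓ Q c) (inf_le_left.trans (h1.trans (Q_le_T' hd)))
  have : (H ⊓ Q c) ⊓ Q d = H ⊓ D b := le_antisymm (fun x hx => ⟨hx.1.1, mem_DD.2 ⟨h1 hx.1.1, fun e he => by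
    rcases h.four hb hc hd he h3.symm h4.symm h5 with rfl | rfl | rfl
    exacts [h2 hx.1.1, hx.1.2, hx.2]⟩⟩) fun x hx => ⟨⟨hx.1, (mem_DD.1 hx.2).2 c hc⟩, (mem_DD.1 hx.2).2 d hd⟩
  rw [this] at e4
  omega

section Even

variable {n : ℕ} {γ : ℕ → V} (hn : MB X adj (n + 2)) (hc : Crit X adj (n + 2) γ)
include hn hc

omit hc in
theorem Z0_le (hγ : Path adj (n + 2) γ) : Z (γ 0) ≤ T (γ (n + 2)) (γ (n + 1)) :=
  (h.ZQ hn hγ (by omega) (by omega) (by omega) (by omega)).trans (Q_le_T' (hγ (n + 1) (by omega)))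

theorem n1_crit (e : ∀ u ∈ Z (γ 0), u ∈ Q (γ (n + 2)) → u ∈ Z (γ 1)) : NOne X adj A :=
  h.n1_of (hc.1 0 (by omega)) (h.crit_A hn hc) fun u hu v hv h1 h2 => e _ (mul_mem hu hv)
    (h.two (h.symm (hc.1 (n + 1) (by omega))) (h.Z0_le hn hc.1 hu) (h.Z0_le hn hc.1 hv) (fun e' => h1 (e u hu e'))
      fun e' => h2 (e v hv e'))

variable (hA : A (γ (n + 2)))
include hA

theorem even_s : ∃ s ∈ Z (γ (n + 2)), s ∉ Q (γ 0) := by
  by_contra e
  push Not at e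
  exact hc.2 fun t ht => h.mem_Q_of_cZ (h.symm (hc.1 (n + 1) (by omega))) hA (h.Z0_le hn hc.1 ht)
    fun u hu => (cZ (e u hu) ht).symm

omit hA in
theorem Zn_le : Z (γ (n + 2)) ≤ T (γ 0) (γ 1) :=
  (h.ZQ hn hc.1 (by omega) (by omega) (by omega) (by omega)).trans (Q_le_T' (h.symm (hc.1 0 (by omega))))

theorem even_eq : Z (γ 1) = Z (γ (n + 1)) := by
  obtain ⟨s, s1, s2⟩ := h.even_s hn hc hA
  have a0 := hc.1 0 (by omega)
  have an := h.symm (hc.1 (n + 1) (by omega))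
  have hA0 := h.crit_A hn hc
  have k : ∀ u ∈ Z (γ 0), u ∈ Q (γ (n + 2)) → u ∈ Z (γ 1) := fun u hu e =>
    h.fixZ a0 hA0 hu (h.Zn_le hn hc s1) s2 (cZ e s1).symm
  have h1 := h.n1_crit hn hc k
  obtain ⟨t, t1, t2⟩ := SetLike.not_le_iff_exists.1 hc.2
  have r1 := h.commZ a0 hA0 t1 (h.Zn_le hn hc s1)
  have r2 := h.commZ an hA s1 (h.Z0_le hn hc.1 t1)
  rw [← commutatorElement_inv, inv_mem_iff] at r2
  have r3 : ⁅s, t⁆ ≠ 1 := fun e => t2 (h.mem_Q_of an hA s1 (fun e => s2 (h.ZQ hn hc.1 (i := n + 1) (by omega)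
    (by omega) (by omega) (by omega) e)) (h.Z0_le hn hc.1 t1) (commutatorElement_eq_one_iff_commute.1 e).symm)
  exact le_antisymm (ZB_le_of h1 (h.AB a0 hA0) r1 r3 r2) (ZB_le_of h1 (h.AB an hA) r2 r3 r1)

end Even

theorem even_two {γ : ℕ → V} (hn : MB X adj 2) (hc : Crit X adj 2 γ) : Nat.card (T (γ 0) (γ 1)) ≤ 128 := by
  have a0 : adj (γ 0) (γ 1) := hc.1 0 (by omega)
  have a1 : adj (γ 1) (γ 2) := hc.1 1 (by omega)
  have hA := h.crit_A hn hc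
  have hB := h.AB a0 hA
  obtain ⟨s, s1, s2⟩ := h.even_s (n := 0) hn hc (h.BA a1 hB)
  have s3 : s ∈ V1 (γ 1) := Z_le_V (h.symm a1) s1
  obtain ⟨c, hc1, hc2⟩ := h.other a0
  obtain ⟨g, g1, g2⟩ := h.trans a0 hc1
  have hK : D (γ 1) ⊓ D c = ⊥ := by
    by_contra e
    have := h.fin a0
    have h1 : D (γ 1) ⊓ D c ≤ T (γ 0) (γ 1) := fun x hx => Q_le_T a0 ((mem_DD.1 hx.1).2 _ (h.symm a0))
    obtain ⟨z, ⟨z1, z2⟩, z3⟩ := (bot_or_exists_ne_one _).resolve_left (inf_omegaOne_center_ne_bot (h.pg a0) h1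
      (h.T_le a0 (h.Zn_le (n := 0) hn hc s1) s2 (le_normalizer_inf (fun _ e => h.nD _ (Qb e a0))
        fun _ e => h.nD _ (Qb e hc1)) (le_normalizer_of_le_centralizer (H := zpowers s) (K := D (γ 1) ⊓ D c)
          (zpowers_le.2 fun x hx => (h.cD hB hx.1 s3).eq) (mem_zpowers s))) e)
    have z4 : z ∈ Z (γ 1) := by rw [h.ZB_eq a0 hB]; exact z2
    have s4 : s ∈ T (γ 0) (γ 1) := h.Zn_le (n := 0) hn hc s1
    refine z3 (h.infZ a0 hc1 hA hc2.symm z4 (h.fixZ hc1 hA (h.ZB_le a0 hB z4) (x := g * s * g⁻¹) ⟨?_, ?_⟩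
      (by rwa [← g1, h.conj_Q_iff]) (h.cD (h.AB hc1 hA) z1.2 (h.conj_Vb g2 s3)).symm))
    · exact mul_mem (mul_mem g1 s4.1) (inv_mem g1 : g⁻¹ ∈ stabilizer X (γ 0))
    · show (g * s * g⁻¹) • c = c
      rw [← g2, mul_smul, mul_smul, inv_smul_smul, (mem_T.1 s4).2]
  have e1 := h.card_le (h.symm a0) le_rfl
  rw [inf_eq_right.2 (Q_le_T (h.symm a0)), eT_comm] at e1
  have e2 := h.card_le a0 (Q_le_T' (h.symm a0))
  have e3 := h.card_D (h.symm a0) (H := Q (γ 1) ⊓ Q (γ 0)) inf_le_left inf_le_right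
  have e4 : (Q (γ 1) ⊓ Q (γ 0)) ⊓ D (γ 1) = D (γ 1) :=
    inf_eq_right.2 fun x hx => ⟨(mem_DD.1 hx).1, (mem_DD.1 hx).2 _ (h.symm a0)⟩
  have e0 : D (γ 1) ≤ Q (γ 0) := fun x hx => (mem_DD.1 hx).2 _ (h.symm a0)
  have e5 := h.card_le (h.symm hc1) (e0.trans (Q_le_T' hc1))
  have e6 := h.card_D (h.symm hc1) (H := D (γ 1) ⊓ Q c) inf_le_right (inf_le_left.trans e0)
  rw [show (D (γ 1) ⊓ Q c) ⊓ D c = ⊥ from le_bot_iff.1 (hK ▸ fun x hx => ⟨hx.1.1, hx.2⟩), card_bot] at e6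
  rw [e4] at e3
  omega

omit h in
theorem fix_of {n i j : ℕ} {γ : ℕ → V} (hγ : Path adj n γ) (hj : j + 1 ≤ n)
    (e : ∀ k, i ≤ k → k ≤ j → x ∈ Q (γ k)) (hij : i ≤ j) : ∀ k, i ≤ k → k ≤ j + 1 → x • γ k = γ k := fun k k1 k2 => by
  rcases Nat.lt_or_ge k (j + 1) with e' | e'
  · exact Qa (e k k1 (by omega))
  · obtain rfl : k = j + 1 := by omega
    exact Qb (e j hij le_rfl) (hγ j (by omega))

theorem fix_of' {n i j : ℕ} {γ : ℕ → V} (hγ : Path adj n γ) (hj : j ≤ n)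
    (e : ∀ k, i + 1 ≤ k → k ≤ j → x ∈ Q (γ k)) (hij : i + 1 ≤ j) : ∀ k, i ≤ k → k ≤ j → x • γ k = γ k :=
  fun k k1 k2 => by
    rcases Nat.lt_or_ge i k with e' | e'
    · exact Qa (e k e' k2)
    · obtain rfl : k = i := by omega
      exact Qb (e _ le_rfl hij) (h.symm (hγ k (by omega)))

theorem ex_crit {n : ℕ} {γ : ℕ → V} (hn : MB X adj n) (hc : Crit X adj n γ) {τ : Prop} (hA : A (γ n) ↔ τ) :
    EX X adj A τ n := by
  obtain ⟨t, t1, t2⟩ := SetLike.not_le_iff_exists.1 hc.2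
  obtain ⟨m, rfl⟩ : ∃ m, n = m + 1 := ⟨n - 1, by have := h.two_le hn hc; omega⟩
  exact ex_of (crit_arc hn hc) (Nat.zero_le _) le_rfl hA (fix_of hc.1 le_rfl (fun k _ k2 =>
    h.ZQ hn hc.1 (by omega) (by omega) (by omega) (by omega) t1) (Nat.zero_le _)) t2

theorem even_big {n : ℕ} {γ : ℕ → V} (hn : MB X adj (n + 4)) (hc : Crit X adj (n + 4) γ) (hA : A (γ (n + 4))) :
    False := by
  have a0 := hc.1 0 (by omega)
  have a3 := hc.1 (n + 3) (by omega)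
  have a2 := hc.1 (n + 2) (by omega)
  have a1 := hc.1 (n + 1) (by omega)
  have hA0 := h.crit_A hn hc
  have hB3 := h.AB (h.symm a3) hA
  have hA2 := h.BA (h.symm a2) hB3
  have he := h.even_eq (n := n + 2) hn hc hA
  obtain ⟨c, hc1, hc2⟩ := h.other a0
  have hC := h.AB hc1 hA0
  have h1 : V1 c ≤ Q (γ (n + 2)) := h.V_le hC fun e he' => by_contra fun hne => by
    have h2 := h.even_eq (n := n + 2) (γ := cons e (cons c γ)) hn
      ⟨((hc.1.cons (h.symm hc1)).cons (h.symm he')).mono (by omega), hne⟩ hA2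
    simp only [cons_succ, cons_zero] at h2
    refine hc.2 ((h.ZA_le a0 hc1 hA0 hc2.symm).trans (sup_le ?_ ?_))
    · exact h.ZQ hn hc.1 (by omega) (by omega) (by omega) (by omega)
    · exact h2 ▸ h.ZQ hn hc.1 (by omega) (by omega) (by omega) (by omega)
  obtain ⟨s, s1, s2⟩ := h.even_s (n := n + 2) hn hc hA
  have s3 := h.Zn_le (n := n + 2) hn hc s1
  obtain ⟨x, x1, x2⟩ : ∃ x ∈ V1 c, x ∉ Q (γ (n + 3)) := by
    by_contra e
    push Not at e
    refine h.Vb_ne_bot 1 c (h.free' hc1 ((hn.Vb_le_Q (.one (h.symm hc1)) (by omega)).trans (Q_le_T hc1))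
      (h.nVb 1 c) (g := s) ?_ s3.1 (h.ne_of a0 hc1 hc2.symm s3.1 s3.2 s2))
    have := h.fin_Q hc1
    have := finite_of_le (hn.Vb_le_Q (k := 1) (.one (h.symm hc1)) (by omega))
    refine mem_normalizer_of_conj_mem fun v hv => ?_
    have h3 := h.commZ (h.symm a3) hA s1 (Q_le_T' a3 (e v hv))
    rw [← he] at h3
    have : s * v * s⁻¹ = ⁅v, s⁆⁻¹ * v := by simp only [commutatorElement_def]; group
    rw [this]
    exact mul_mem (inv_mem (Z_le_V hc1 (h.ZB_le a0 (h.AB a0 hA0) h3))) hv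
  have hγ := crit_arc hn hc
  have e1 := ex_of (A := A) (τ := False) hγ (i := 0) (j := n + 3) (by omega) (by omega) (by tauto) (fix_of hc.1
    (by omega) (fun k _ k2 => by
      rcases Nat.lt_or_ge k (n + 2) with e | e
      · exact hn.Vb_le_Q ((Near.one (h.symm hc1)).trans (near_path hc.1 (Nat.zero_le k) (by omega))) (by omega) x1
      · obtain rfl : k = n + 2 := by omega
        exact h1 x1) (Nat.zero_le _)) x2
  have e2 := h.at_of ((h.ex_crit hn hc (by tauto)).mono (by omega)) e1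
  obtain ⟨g, g1, g2⟩ := e2.seg hγ (i := 1) (j := n + 2) (by omega) (by omega) (by omega)
  obtain ⟨z, z1, z2⟩ := h.Z_ne' hB3
  exact h.ne_of (h.symm a1) a2 (hγ.2 (n + 1) (by omega)).symm (g1 _ (by omega) le_rfl) (g1 _ (by omega) (by omega)) g2
    (h.fixB a2 hA2 z1 z2 (g1 _ (by omega) le_rfl) (h.cZB (h.AB a0 hA0) (g1 1 le_rfl (by omega)) (he ▸ z1)))

section Odd

variable {n : ℕ} (hn : MB X adj (n + 3))
include hn

theorem exists_N (hB : ¬ A b) (ha : adj b a) (ha' : adj b a') (hne : a ≠ a') : ∃ x ∈ Q b, x ∈ Q a ∧ x ∉ Q a' := by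
  by_contra e
  push Not at e
  obtain ⟨a'', h1, h2, h3⟩ := h.third ha ha' hne
  obtain ⟨q, q1, q2⟩ := h.exists_Q (h.symm ha)
  have e' : ∀ x ∈ Q b, x ∈ Q a → x ∈ Q a'' := fun x x1 x2 => by
    have q3 := h.swap ha ha' h1 hne h2.symm h3.symm (Qb q1 (h.symm ha)) (Qa q1) q2
    have := h.conj_Q q (e _ (h.conj_Q' (g := q⁻¹) (Qb (inv_mem q1) (h.symm ha)) x1) (h.conj_Q' (Qa (inv_mem q1)) x2))
    simpa [q3, mul_assoc] using this
  have k : ∀ d, adj b d → (∀ x ∈ Q b, x ∈ Q a → x ∈ Q d) → ∀ x ∈ Q b, x ∈ Q d → x ∈ Q a := fun d hd e x x1 x2 => by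
    by_contra x3
    obtain ⟨y, y1, y2⟩ := h.exists_Q hd
    exact y2 ((mul_mem_cancel_left x2).1 (e _ (mul_mem x1 y1) (h.two (h.symm ha) (Q_le_T' ha x1) (Q_le_T' ha y1) x3
      fun y3 => y2 (e y y1 y3))))
  obtain ⟨t, t1, t2⟩ := h.exists_Q (h.symm h1)
  have t3 : t • b = b := Qb t1 (h.symm h1)
  have t4 := h.swap h1 ha ha' h2 h3 hne t3 (Qa t1) t2
  have hA := h.BA ha hB
  refine h.Z_ne_bot a (h.free' ha ((h.Z_le_Q a).trans (Q_le_T' (h.symm ha))) (h.nZ a) (g := t) ?_ t3 (t4 ▸ hne.symm))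
  have := h.fin_Q (h.symm ha)
  have := finite_of_le (h.Z_le_Q a)
  refine mem_normalizer_of_conj_mem fun u hu => ?_
  have u1 := h.conj_Z' t4 hu
  have u2 : Commute u (t * u * t⁻¹) := h.Vb_comm hn (.refl 0 b) (by omega) (Z_le_V (h.symm ha) hu)
    (Z_le_V (h.symm ha') u1)
  have u3 : Commute (t * t) u := cZ (k a'' h1 e' _ (h.two h1 ⟨t3, Qa t1⟩ ⟨t3, Qa t1⟩ t2 t2) (mul_mem t1 t1)) hu
  have u4 : u * (t * u * t⁻¹) ∈ Z b := by
    refine h.mem_ZB (h.symm h1) hB (Q_le_T' h1 (mul_mem (h.Z_le_Q_adj (h.symm ha) hu)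
      (h.Z_le_Q_adj (h.symm ha') u1))) (fun x hx => mem_centralizer_singleton_iff.1 (h.T_le h1 ⟨t3, Qa t1⟩ t2
        (K := centralizer {u * (t * u * t⁻¹)}) (fun q hq => mem_centralizer_singleton_iff.2 ?_)
        (mem_centralizer_singleton_iff.2 (commute_of_conj_eq ?_)) ⟨hx.2, hx.1⟩)) ?_
    · by_cases q3 : q ∈ Q a
      · exact (cZ q3 hu).mul_right (cZ (e q hq q3) u1)
      have q4 : t⁻¹ * q * t⁻¹⁻¹ ∈ Q b := h.conj_Q' (inv_smul_eq_iff.2 t3.symm) hq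
      have q5 : t⁻¹ * q * t⁻¹⁻¹ ∉ Q a := fun e'' => q3 (k a' ha' e q hq (by
        simpa [t4, mul_assoc] using h.conj_Q t e''))
      rw [inv_inv] at q4 q5
      have q6 := cZ (h.two (h.symm ha) (inv_mem (Q_le_T' ha hq)) (Q_le_T' ha q4) (by rwa [inv_mem_iff]) q5) hu
      have z1 := h.commZ (h.symm ha) hA hu (Q_le_T' ha hq)
      have z2 : q * u * q⁻¹ = ⁅q, u⁆ * u := by simp only [commutatorElement_def]; group
      have z3 : q * (t * u * t⁻¹) * q⁻¹ = ⁅q, u⁆ * (t * u * t⁻¹) := by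
        calc q * (t * u * t⁻¹) * q⁻¹ = t * q * (q⁻¹ * (t⁻¹ * q * t) * u * (q⁻¹ * (t⁻¹ * q * t))⁻¹) * q⁻¹ * t⁻¹ := by
              group
          _ = t * ⁅q, u⁆ * t⁻¹ * (t * u * t⁻¹) := by
              rw [conj_eq_of_commute q6]; simp only [commutatorElement_def]; group
          _ = _ := by rw [conj_eq_of_commute (h.cZB hB t3 z1)]
      refine commute_of_conj_eq ?_
      calc q * (u * (t * u * t⁻¹)) * q⁻¹ = (q * u * q⁻¹) * (q * (t * u * t⁻¹) * q⁻¹) := by group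
        _ = ⁅q, u⁆ * (u * ⁅q, u⁆ * u⁻¹) * (u * (t * u * t⁻¹)) := by rw [z2, z3]; group
        _ = _ := by rw [conj_eq_of_commute (h.cZB hB (Qb (h.Z_le_Q a hu) (h.symm ha)) z1), h.sqZ z1, one_mul]
    · calc t * (u * (t * u * t⁻¹)) * t⁻¹ = (t * u * t⁻¹) * (t * t * u * (t * t)⁻¹) := by group
        _ = _ := by rw [conj_eq_of_commute u3, u2.eq]
    · calc u * (t * u * t⁻¹) * (u * (t * u * t⁻¹)) = u * ((t * u * t⁻¹) * u) * (t * u * t⁻¹) := by group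
        _ = u * u * (t * (u * u) * t⁻¹) := by rw [← u2.eq]; group
        _ = 1 := by rw [h.sqZ hu]; group
  exact (mul_mem_cancel_left hu).1 (h.ZB_le (h.symm ha) hB u4)

theorem infA (hB : ¬ A b) (ha : adj b a) (ha' : adj b a') (hne : a ≠ a') (h1 : u ∈ Z a) (h2 : u ∈ Z a') :
    u ∈ Z b := by
  obtain ⟨x, x1, x2, x3⟩ := h.exists_N hn hB ha ha' hne
  exact h.fixZ (h.symm ha') (h.BA ha' hB) h2 (Q_le_T' ha' x1) x3 (cZ x2 h1)

theorem fixA (hB : ¬ A b) (ha : adj b a) (h1 : u ∈ Z a) (h2 : u ∉ Z b) (hx : x • b = b) (hc : Commute x u) :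
    x • a = a := by_contra fun e =>
  h2 (h.infA hn hB (h.inv' hx ha) ha e (conj_eq_of_commute hc ▸ h.conj_Z x h1) h1)

theorem ex_three (hB : ¬ A b) : EX X adj A True 3 := by
  obtain ⟨a, ha⟩ := h.nb b
  obtain ⟨a', ha', hne⟩ := h.other ha
  obtain ⟨c, hc, hc'⟩ := h.other (h.symm ha)
  obtain ⟨x, x1, x2, x3⟩ := h.exists_N hn hB ha ha' hne.symm
  have hγ := ((((arc_zero a').cons ha' (by omega)).cons (h.symm ha) fun _ => hne).cons (h.symm hc) fun _ => hc'.symm)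
  refine ex_of hγ (i := 0) (j := 3) (by omega) le_rfl (iff_true_intro (h.BA ha' hB)) (fun k _ k2 => ?_) x3
  interval_cases k
  exacts [Qb x2 hc, Qa x2, Qa x1, Qb x1 ha']

variable {γ : ℕ → V} (hc : Crit X adj (n + 3) γ) (hB : ¬ A (γ (n + 3)))
include hc hB

theorem at_odd {m : ℕ} (e : EX X adj A True m) (hm : m ≤ n + 3) : AT X adj m :=
  h.at_of e ((h.ex_crit hn hc (by tauto)).mono hm)

theorem odd_sym : ∃ μ, adj (γ (n + 3)) μ ∧ ¬ Z μ ≤ Q (γ 1) := by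
  by_contra e
  push Not at e
  have e := h.V_le hB e
  have hγ := crit_arc hn hc
  have a0 := hc.1 0 (by omega)
  have an := h.symm (hc.1 (n + 2) (by omega))
  obtain ⟨t, t1, t2⟩ := SetLike.not_le_iff_exists.1 hc.2
  have t3 := h.Z0_le (n := n + 1) hn hc.1 t1
  obtain ⟨s, s1, s2⟩ : ∃ s ∈ V1 (γ (n + 3)), s ∉ Q (γ 0) := by
    by_contra e'
    push Not at e'
    obtain ⟨μ, m1, m2⟩ := h.other an
    obtain ⟨u, u1, u2⟩ := h.exists_ZA (h.symm m1) (h.BA m1 hB)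
    exact h.ne_of an m1 m2.symm t3.1 t3.2 t2
      (h.fixA hn hB m1 u1 u2 t3.1 (cZ (e' u (Z_le_V (h.symm m1) u1)) t1).symm)
  have e1 := h.ex_rev (τ := True) hγ (i := 0) (j := n + 3) (by omega) le_rfl (iff_true_intro (h.crit_A hn hc))
    (h.fix_of' hc.1 le_rfl (fun k k1 k2 => by
      rcases Nat.lt_or_ge 1 k with e' | e'
      · exact hn.Vb_le_Q (h.near_path' hc.1 k2 le_rfl) (by omega) s1
      · obtain rfl : k = 1 := by omega
        exact e s1) (by omega)) s2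
  have hs := hγ.shift (i := 1) (m := n + 2) (by omega)
  obtain ⟨g, hg⟩ := h.conj_arc (h.at_odd hn hc hB e1 le_rfl) (n + 2) (by omega) _ _ hs (hs.rev' h.symm) (by
    have := h.AB a0 (h.crit_A hn hc)
    simp only [Nat.sub_self, show 1 + (n + 2) = n + 3 by omega]; tauto)
  have g1 := hg 0 (by omega)
  have g2 := hg (n + 2) le_rfl
  simp only [Nat.sub_self, Nat.sub_zero, show 1 + (n + 2) = n + 3 by omega, Nat.add_zero] at g1 g2
  refine t2 ((h.conj_Q_iff g).1 ?_)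
  rw [g2]
  exact e (h.conj_Vb g1 (Z_le_V a0 t1))

omit hB in
theorem crit_rev {μ : V} (h1 : adj (γ (n + 3)) μ) (h2 : ¬ Z μ ≤ Q (γ 1)) :
    Crit X adj (n + 3) (cons μ fun k => γ (n + 3 - k)) ∧ μ ≠ γ (n + 2) :=
  ⟨⟨((path_rev h.symm hc.1).cons (h.symm h1)).mono (by omega), by
    simpa only [cons_zero, cons_succ, show n + 3 - (n + 2) = 1 by omega] using h2⟩,
    fun e => h2 (e ▸ h.ZQ hn hc.1 (by omega) (by omega) (by omega) (by omega))⟩

theorem odd_n1 : NOne X adj A := by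
  obtain ⟨μ, m1, m2⟩ := h.odd_sym hn hc hB
  obtain ⟨m3, m4⟩ := h.crit_rev hn hc m1 m2
  have hγ := crit_arc hn hc
  have a0 := hc.1 0 (by omega)
  have a1 := hc.1 1 (by omega)
  have an := h.symm (hc.1 (n + 2) (by omega))
  have hA0 := h.crit_A hn hc
  have hB1 := h.AB a0 hA0
  by_cases e : ∀ a ∈ Z (γ 0), a ∈ Q (γ (n + 3)) → a ∈ Q μ
  · obtain ⟨s, s1, s2⟩ := SetLike.not_le_iff_exists.1 m2
    have s3 : s ∈ Q (γ 2) := hn.Vb_le_Q (h.near_path' hc.1 (by omega) le_rfl) (by omega) (Z_le_V (h.symm m1) s1)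
    refine h.n1_crit (n := n + 1) hn hc fun a a2 a3 => by_contra fun a4 => ?_
    exact h.ne_of a1 (h.symm a0) (hγ.2 0 (by omega)) (Qb s3 (h.symm a1)) (Qa s3) s2
      (h.fixA hn hB1 (h.symm a0) a2 a4 (Qb s3 (h.symm a1)) (cZ (e a a2 a3) s1).symm)
  push Not at e
  obtain ⟨a, a2, a3, a4⟩ := e
  have e1 := ex_of (A := A) (τ := True) (hγ.snoc m1 m4) (i := 0) (j := n + 4) (by omega) le_rfl
    (by rw [snoc_succ]; exact iff_true_intro (h.BA m1 hB)) (fix_of (hγ.snoc m1 m4).1 le_rfl (fun k _ k2 => by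
      rw [snoc_le _ _ k2]
      rcases Nat.lt_or_ge k (n + 3) with e | e
      · exact h.ZQ hn hc.1 (by omega) (by omega) (by omega) (by omega) a2
      · obtain rfl : k = n + 3 := by omega
        exact a3) (Nat.zero_le _)) (by rwa [snoc_succ])
  obtain ⟨g, g1, g2⟩ := (h.at_odd hn hc hB (e1.mono (by omega)) le_rfl).seg hγ (i := 1) (j := n + 2) (by omega)
    (by omega) (by omega)
  refine h.n1_crit (n := n + 1) hn m3 fun y y1 y2 => ?_
  simp only [cons_zero, cons_succ, show n + 3 - (n + 2) = 1 by omega, Nat.sub_zero] at y1 y2 ⊢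
  have a5 : a ∈ T μ (γ (n + 3)) := Q_le_T' m1 a3
  refine h.fixZ (h.symm m1) (h.BA m1 hB) y1 a5 a4 (commutatorElement_eq_one_iff_commute.1 (by_contra fun z2 => ?_))
  have z1 := h.commZ (h.symm m1) (h.BA m1 hB) y1 a5
  have z3 := h.commZ a0 hA0 a2 (Q_le_T' (h.symm a0) y2)
  rw [← commutatorElement_inv, inv_mem_iff] at z3
  exact h.ne_of (h.symm (hc.1 (n + 1) (by omega))) (h.symm an) (hγ.2 (n + 1) le_rfl).symm (g1 _ (by omega) le_rfl)
    (g1 _ (by omega) (by omega)) g2 (h.fixB (h.symm an) (h.BA an hB) z1 z2 (g1 _ (by omega) le_rfl)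
      (h.cZB hB1 (g1 1 le_rfl (by omega)) z3))

end Odd

end GC

end H27.GA
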