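import Cfsg.Agent.H27.GA3

/-! Trivalent amalgams `GA.GC`: odd critical distance at least five is impossible (`odd_five`, `odd_big`); at
distance three the groups `V b` have order eight (`three_v8`). -/

set_option autoImplicit false

namespace H27.GA

open Cfsg Subgroup MulAction H26
open scoped Pointwise commutatorElement

variable {X : Type*} [Group X] {V : Type*} [MulAction X V]

theorem comm_mul_right {x u v : X} (h : Commute u ⁅x, v⁆) : ⁅x, u * v⁆ = ⁅x, u⁆ * ⁅x, v⁆ := by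
  calc ⁅x, u * v⁆ = ⁅x, u⁆ * (u * ⁅x, v⁆ * u⁻¹) := by simp only [commutatorElement_def]; group
    _ = _ := by rw [conj_eq_of_commute h]

theorem comm_mul_left {x y u : X} (h : Commute x ⁅y, u⁆) : ⁅x * y, u⁆ = ⁅y, u⁆ * ⁅x, u⁆ := by
  calc ⁅x * y, u⁆ = (x * ⁅y, u⁆ * x⁻¹) * ⁅x, u⁆ := by simp only [commutatorElement_def]; group
    _ = _ := by rw [conj_eq_of_commute h]

theorem sq_mul {u v : X} (h : Commute u v) (hu : u * u = 1) (hv : v * v = 1) : u * v * (u * v) = 1 := by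
  rw [mul_assoc, ← mul_assoc v, ← h.eq, mul_assoc, hv, mul_one, hu]

theorem comm_iff {x u : X} : ⁅x, u⁆ = 1 ↔ Commute x u := commutatorElement_eq_one_iff_commute

def RS (X : Type*) [Group X] {V : Type*} [MulAction X V] (adj : V → V → Prop) (A : V → Prop) (b a : V) (r : X) :
    Prop := YP X adj b a r ∧ r ∉ aZ X adj b ∧ (r ∈ aZ X adj a → V8 X adj A)

namespace GC

variable {adj : V → V → Prop} {A : V → Prop} (h : GC X adj A) {a b c d a' : V} {g x y u v w r : X}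
include h

local notation "Q" => kQ X adj
local notation "T" => eT X
local notation "Z" => aZ X adj
local notation "D" => DD X adj
local notation "V1" => Vb X adj 1

theorem par {n : ℕ} {γ : ℕ → V} (hγ : Path adj n γ) (hA : A (γ 0)) : ∀ i ≤ n, (A (γ i) ↔ Even i) := by
  intro i
  induction i with
  | zero => simpa
  | succ i ih =>
    intro hi
    have := h.bip (hγ i hi)
    rw [Nat.even_add_one, ← ih (by omega)]
    tauto

theorem yp_conj (g : X) (e : YP X adj b a v) : YP X adj (g • b) (g • a) (g * v * g⁻¹) :=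
  ⟨h.conj_Vb rfl e.1, fun x hx => by
    rw [← cj_eT] at hx
    obtain ⟨x, hx', rfl⟩ := mem_cj'.1 hx
    rw [← conjugate_commutatorElement]
    exact h.conj_Z g (e.2 x hx')⟩

theorem yp_of (hB : ¬ A b) (ha : adj b a) (hv : v ∈ V1 b) (hx : x ∈ T b a) (hx' : x ∉ Q b) (e : ⁅x, v⁆ ∈ Z b) :
    YP X adj b a v := ⟨hv, fun y hy => by
  rw [← inv_mem_iff, commutatorElement_inv]
  refine (h.T_le ha hx hx' (K := cm (Z b) v) (fun q hq => ⟨h.nZ b (Qa hq), ?_⟩) ⟨h.nZ b hx.1, ?_⟩ hy).2 <;>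
    rw [← inv_mem_iff, commutatorElement_inv]
  exacts [h.commV hB hq hv, e]⟩

theorem conj2 {b' c' : V} (ha : adj b a) (ha' : adj b a') (hne : a ≠ a') (hc : adj b' c) (hc' : adj b' c')
    (hne' : c ≠ c') (hA : A b ↔ A b') : ∃ g : X, g • a = c ∧ g • b = b' ∧ g • a' = c' := by
  obtain ⟨g, hg⟩ := h.conj_arc h.at_one 2 le_rfl _ _
    (((arc_zero a').cons ha' (by omega)).cons (h.symm ha) fun _ => hne.symm)
    (((arc_zero c').cons hc' (by omega)).cons (h.symm hc) fun _ => hne'.symm)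
    (by have := h.bip ha'; have := h.bip hc'; simp only [cons_succ]; tauto)
  exact ⟨g, hg 0 (by omega), hg 1 (by omega), hg 2 le_rfl⟩

theorem v8_of (hB : ¬ A b) (ha : adj b a) (ha' : adj b a') (hne : a ≠ a') (e : V1 b ≤ Z a ⊔ Z a') : V8 X adj A :=
  fun b' c c' hB' hc hc' hne' => by
    obtain ⟨g, rfl, rfl, rfl⟩ := h.conj2 ha ha' hne hc hc' hne' (by tauto)
    rw [← h.cj_Vb, ← h.cj_Z, ← h.cj_Z, ← cj_sup]
    exact cj_mono g e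

theorem cen' (h1 : NOne X adj A) (hA : A a) (hv : v ∈ Q a) (hc : ∀ q ∈ Q a, Commute q v) (h2 : v * v = 1) :
    v ∈ Z a := by
  obtain ⟨b, hb⟩ := h.nb a
  obtain ⟨x, x1, x2, x3⟩ := h.move hb
  have hB := h.AB hb hA
  by_cases e : ⁅x, v⁆ = 1
  · exact h.ZB_le hb hB (h.mem_ZB' hb hB hv hc h2 ⟨x1, x2⟩ x3 (comm_iff.1 e))
  obtain ⟨u, u1, u2⟩ := h.exists_ZA hb hA
  have e0 := h.commZ hb hA u1 (x := x) ⟨x1, x2⟩
  have e1 := h1 b hB _ (h.comm_mem hb hB hv hc h2 ⟨x1, x2⟩) _ e0 e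
    fun e' => u2 (h.fixZ hb hA u1 ⟨x1, x2⟩ x3 (comm_iff.1 e'))
  refine (mul_mem_cancel_right u1).1 (h.ZB_le hb hB (h.mem_ZB' hb hB (mul_mem hv (h.Z_le_Q a u1))
    (fun q hq => (hc q hq).mul_right (cZ hq u1)) (sq_mul (cZ hv u1) h2 (h.sqZ u1)) ⟨x1, x2⟩ x3 (comm_iff.1 ?_)))
  rw [comm_mul_right (cZ hv (h.ZB_le hb hB e0)), e1, h.sqZ e0]

theorem cover (h1 : NOne X adj A) (hA : A a) (hb : adj a b) (hc : adj a c) (hd : adj a d) (hbc : b ≠ c)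
    (hbd : b ≠ d) (hcd : c ≠ d) (hw : w ∈ Z a) (h2 : w ∉ Z b) (h3 : w ∉ Z c) : w ∈ Z d := by
  obtain ⟨z, z1, z2⟩ := h.Z_ne hc (h.AB hc hA)
  obtain ⟨y, y1, y2⟩ := h.Z_ne hd (h.AB hd hA)
  have z3 := h.ZB_le hc (h.AB hc hA) z1
  have z4 : z ∉ Z b := fun e => z2 (h.infZ hb hc hA hbc e z1)
  have := h1 b (h.AB hb hA) _ (h.twoZ h1 hb hA hw z3 h2 z4) _ (h.twoZ h1 hb hA (h.ZB_le hd (h.AB hd hA) y1) z3
    (fun e => y2 (h.infZ hb hd hA hbd e y1)) z4) (fun e => h3 (eq_inv_of_mul_eq_one_left e ▸ inv_mem z1))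
    fun e => y2 (h.infZ hc hd hA hcd (eq_inv_of_mul_eq_one_left e ▸ inv_mem z1) y1)
  rwa [mul_right_cancel this]

section Odd

variable {n : ℕ} (hn : MB X adj (n + 3))
include hn

theorem comV (hx : x ∈ V1 b) (hy : y ∈ V1 b) : Commute x y := h.Vb_comm hn (.refl 0 b) (by omega) hx hy

theorem sqV (hv : v ∈ V1 b) : v * v = 1 :=
  (mem_oz.1 (Vb_le (K := oz (V1 b)) (fun _ hu _ hw => mem_oz.2 ⟨Z_le_Vb hu hw,
    fun _ hy => h.comV hn hy (Z_le_Vb hu hw), h.sqZ hw⟩) hv)).2.2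

omit h in
theorem V_le_Q (ha : adj b a) : V1 b ≤ Q a := hn.Vb_le_Q (.one ha) (by omega)

omit h in
theorem V_le_D : V1 b ≤ D b := fun _ hv =>
  mem_DD.2 ⟨hn.Vb_le_Q (.refl 0 b) (by omega) hv, fun _ ha => V_le_Q hn ha hv⟩

variable (h1 : NOne X adj A)
include h1

theorem rside (hB : ¬ A b) (hk : adj b c) (ha : adj b a) (hne : c ≠ a) (t1 : u ∈ Z a) (t2 : u ∉ Z b)
    (s1 : x ∈ T b c) (s2 : x ∉ Q b) : RS X adj A b c ⁅x, u⁆ := by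
  have m := h.ne_of hk ha hne s1.1 s1.2 s2
  have m' : x • a ≠ c := Tri.ne_of' hne s1.2
  have ha' := h.inv' s1.1 ha
  have u1 := h.conj_Z x t1
  have v1 := Z_le_V (h.symm ha) t1
  have v2 := Z_le_V (h.symm ha') u1
  have n1 : x * u * x⁻¹ * u ∉ Z b := fun e => t2 (h.infA hn hB ha ha' m.symm t1
    ((mul_mem_cancel_left u1).1 (h.ZB_le (h.symm ha') hB e)))
  rw [comm_self_inv (h.sqZ t1)]
  refine ⟨h.yp_of hB hk (mul_mem v2 v1) s1 s2 ?_, n1, fun e => h.v8_of hB ha' ha m (h.V_le hB fun d hd => ?_)⟩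
  · have : ⁅x, x * u * x⁻¹ * u⁆ = ⁅x * x, u⁆ * (u * (x * u * x⁻¹) * u⁻¹ * (x * u * x⁻¹)⁻¹) := by
      simp only [commutatorElement_def]; group
    rw [this, conj_eq_of_commute (h.comV hn v1 v2), mul_inv_cancel, mul_one]
    exact h.commV hB (h.two hk s1 s1 s2 s2) v1
  · rcases h.four hk ha ha' hd hne m'.symm m.symm with rfl | rfl | rfl
    · exact h.Z_le_of h1 (h.symm hk) (h.BA hk hB) e n1 ((h.ZB_le (h.symm ha) hB).trans le_sup_right)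
        (mul_mem (mem_sup_left u1) (mem_sup_right t1))
    exacts [le_sup_right, le_sup_left]

theorem yp_le (h8 : V8 X adj A) (hB : ¬ A b) (hk : adj b c) (e : YP X adj b c v) : v ∈ Z c := by
  obtain ⟨a, ha, hne⟩ := h.other hk
  obtain ⟨u, u1, w, w1, rfl⟩ := (mem_sup_of_le_normalizer (le_normalizer_of_le_centralizer fun _ hx _ hy =>
    (h.comV hn (Z_le_V (h.symm ha) hy) (Z_le_V (h.symm hk) hx)).eq)).1 (h8 b c a hB hk ha hne.symm e.1)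
  obtain ⟨x, x1, x2, x3⟩ := h.move hk
  refine mul_mem u1 (h.ZB_le (h.symm hk) hB (by_contra fun e' =>
    (h.rside hn h1 hB hk ha hne.symm w1 e' (x := x) ⟨x1, x2⟩ x3).2.1 ?_))
  exact ((mul_mem_cancel_left (h.Z_le_cm (h.symm hk) (h.BA hk hB) (x := x) ⟨x2, x1⟩ u1)).1
    (⟨h.nZ b (Qa (mem_DD.1 (V_le_D hn e.1)).1), e.2 x ⟨x1, x2⟩⟩ : u * w ∈ cm (Z b) x)).2

theorem m1 (hA : A a) (hb : adj a b) (hc : adj a c) (hbc : b ≠ c) (e1 : YP X adj b a v) (e2 : YP X adj c a v) :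
    v ∈ Z a :=
  h.cen' h1 hA (V_le_Q hn (h.symm hb) e1.1) (fun q hq => comm_iff.1
    (h.infZ hb hc hA hbc (e1.2 q (Q_le_T' hb hq)) (e2.2 q (Q_le_T' hc hq)))) (h.sqV hn e1.1)

theorem m0 (hA : A a) (hb : adj a b) (hc : adj a c) (hbc : c ≠ b) (e : YP X adj b a r) (e' : r ∉ Z a)
    (hx : x ∈ T a c) (hx' : x ∉ Q a) : ⁅x, r⁆ ≠ 1 ∧ ∀ q ∈ Q a, ⁅q, ⁅x, r⁆⁆ ∈ Z a := by
  have e2 := h.yp_conj x e
  rw [show x • a = a from hx.1] at e2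
  have hb' := h.inv' hx.1 hb
  refine ⟨fun e3 => e' (h.m1 hn h1 hA hb hb' (h.ne_of hc hb hbc hx.1 hx.2 hx').symm e
    (conj_eq_of_commute (comm_iff.1 e3) ▸ e2)), fun q hq => ?_⟩
  rw [comm_self_inv (h.sqV hn e.1)]
  exact ((cm (Z a) q).mul_mem ⟨h.nZ a (Qa (V_le_Q hn (h.symm hb') e2.1)),
    h.ZB_le hb' (h.AB hb' hA) (e2.2 q (Q_le_T' hb' hq))⟩ ⟨h.nZ a (Qa (V_le_Q hn (h.symm hb) e.1)),
      h.ZB_le hb (h.AB hb hA) (e.2 q (Q_le_T' hb hq))⟩).2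

variable {v1 v2 v3 v4 v5 : V}

theorem m2' (hA : A v2) (a1 : adj v2 v1) (a2 : adj v2 v3) (a3 : adj v3 v4) (a4 : adj v4 v5) (n1 : v3 ≠ v1)
    (n2 : v4 ≠ v2) (n3 : v5 ≠ v3) (e1 : YP X adj v1 v2 r) (e2 : YP X adj v5 v4 r) : r ∈ Z v2 := by
  by_contra e
  have hB := h.AB a2 hA
  have hA4 := h.BA a3 hB
  obtain ⟨x, x1, x2, x3⟩ := h.exists_N hn hB a3 (h.symm a2) n2
  obtain ⟨z1, z2⟩ := h.m0 hn h1 hA a1 a2 n1 e1 e (Q_le_T' (h.symm a2) x1) x3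
  have z3 := e2.2 x (Q_le_T' a4 x2)
  obtain ⟨q, q1, q2⟩ := h.exists_Q a2
  exact e (h.yp_le hn h1 ((h.rside hn h1 hB (h.symm a2) a3 n2.symm (h.ZB_le a4 (h.AB a4 hA4) z3)
    (fun e' => z1 (h.infZ a4 (h.symm a3) hA4 n3 z3 e')) (Q_le_T' a2 q1) q2).2.2 (z2 q q1)) (h.AB a1 hA)
    (h.symm a1) e1)

theorem m2 (hA : A v2) (a1 : adj v2 v1) (a2 : adj v2 v3) (a3 : adj v3 v4) (a4 : adj v4 v5) (n1 : v3 ≠ v1)
    (n2 : v4 ≠ v2) (n3 : v5 ≠ v3) (e1 : YP X adj v1 v2 r) (e2 : YP X adj v5 v4 r) : r ∈ Z v3 :=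
  h.infA hn (h.AB a2 hA) (h.symm a2) a3 n2.symm (h.m2' hn h1 hA a1 a2 a3 a4 n1 n2 n3 e1 e2)
    (h.m2' hn h1 (h.BA a3 (h.AB a2 hA)) a4 (h.symm a3) (h.symm a2) a1 n3.symm n2.symm n1.symm e2 e1)

variable {γ : ℕ → V} (hc : Crit X adj (n + 3) γ)
include hc

theorem t_notQ (t1 : u ∈ Z (γ 0)) (t2 : u ∉ Z (γ 1)) : u ∉ Q (γ (n + 3)) := fun e =>
  hc.2 (h.Z_le_of h1 (hc.1 0 (by omega)) (h.crit_A hn hc) t1 t2
    (h.ZQ hn hc.1 (by omega) (by omega) (by omega) (by omega)) e)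

theorem s_notQ {μ : V} (m1 : adj (γ (n + 3)) μ) (m2 : ¬ Z μ ≤ Q (γ 1)) (s1 : w ∈ Z μ) (s2 : w ∉ Z (γ (n + 3))) :
    w ∈ Q (γ 2) ∧ w ∉ Q (γ 1) :=
  ⟨hn.Vb_le_Q (h.near_path' hc.1 (by omega) le_rfl) (by omega) (Z_le_V (h.symm m1) s1), by
    have := h.t_notQ hn h1 (h.crit_rev hn hc m1 m2).1 s1 s2
    simpa only [cons_succ, show n + 3 - (n + 2) = 1 by omega] using this⟩

theorem rr' {μ : V} (m1 : adj (γ (n + 3)) μ) (m2 : ¬ Z μ ≤ Q (γ 1)) (t1 : u ∈ Z (γ 0)) (t2 : u ∉ Z (γ 1))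
    (s1 : w ∈ Z μ) (s2 : w ∉ Z (γ (n + 3))) : RS X adj A (γ 1) (γ 2) ⁅w, u⁆ := by
  have a0 := hc.1 0 (by omega)
  have a1 := hc.1 1 (by omega)
  obtain ⟨s3, s4⟩ := h.s_notQ hn h1 hc m1 m2 s1 s2
  exact h.rside hn h1 (h.AB a0 (h.crit_A hn hc)) a1 (h.symm a0) ((crit_arc hn hc).2 0 (by omega)) t1 t2
    (Q_le_T' (h.symm a1) s3) s4

theorem rr {μ : V} (m1 : adj (γ (n + 3)) μ) (m2 : ¬ Z μ ≤ Q (γ 1)) (t1 : u ∈ Z (γ 0)) (t2 : u ∉ Z (γ 1))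
    (s1 : w ∈ Z μ) (s2 : w ∉ Z (γ (n + 3))) :
    RS X adj A (γ 1) (γ 2) ⁅u, w⁆ ∧ RS X adj A (γ (n + 3)) (γ (n + 2)) ⁅u, w⁆ := by
  have e1 := h.rr' hn h1 hc m1 m2 t1 t2 s1 s2
  have e2 := h.rr' hn h1 (h.crit_rev hn hc m1 m2).1 (μ := γ 0) (u := w) (w := u)
    (by simpa only [cons_succ, show n + 3 - (n + 2) = 1 by omega] using h.symm (hc.1 0 (by omega))) hc.2 s1 s2 t1
    (by simpa only [cons_succ, show n + 3 - (n + 2) = 1 by omega] using t2)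
  rw [← commutatorElement_inv, inv_eq_self_of (h.sqV hn e2.1.1)] at e1
  exact ⟨e1, e2⟩

variable (hB : ¬ A (γ (n + 3)))
include hB

theorem exists_rr : ∃ μ u w, adj (γ (n + 3)) μ ∧ ¬ Z μ ≤ Q (γ 1) ∧ u ∈ Z (γ 0) ∧ u ∉ Z (γ 1) ∧ w ∈ Z μ ∧
    w ∉ Z (γ (n + 3)) ∧ RS X adj A (γ 1) (γ 2) ⁅u, w⁆ ∧ RS X adj A (γ (n + 3)) (γ (n + 2)) ⁅u, w⁆ := by
  obtain ⟨μ, m1, m2⟩ := h.odd_sym hn hc hB
  obtain ⟨u, t1, t2⟩ := h.exists_ZA (hc.1 0 (by omega)) (h.crit_A hn hc)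
  obtain ⟨w, s1, s2⟩ := h.exists_ZA (h.symm m1) (h.BA m1 hB)
  exact ⟨μ, u, w, m1, m2, t1, t2, s1, s2, h.rr hn h1 hc m1 m2 t1 t2 s1 s2⟩

end Odd

theorem three_v8 {γ : ℕ → V} (hn : MB X adj 3) (hc : Crit X adj 3 γ) (hB : ¬ A (γ 3)) : V8 X adj A := by
  have h1 := h.odd_n1 (n := 0) hn hc hB
  obtain ⟨μ, u, w, -, -, -, -, -, -, e1, e2⟩ := h.exists_rr (n := 0) hn h1 hc hB
  have a2 := hc.1 2 (by omega)
  exact e1.2.2 (h.m1 (n := 0) hn h1 (h.BA (h.symm a2) hB) (h.symm (hc.1 1 (by omega))) a2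
    ((crit_arc hn hc).2 1 le_rfl).symm e1.1 e2.1)

theorem five_r {γ : ℕ → V} (hn : MB X adj 5) (h1 : NOne X adj A) (hc : Crit X adj 5 γ)
    (e1 : YP X adj (γ 1) (γ 2) r) (e2 : YP X adj (γ 5) (γ 4) r) : r ∈ Z (γ 3) :=
  have hγ := crit_arc hn hc
  h.m2 (n := 2) hn h1 ((h.par hc.1 (h.crit_A hn hc) 2 (by omega)).2 (by decide)) (h.symm (hc.1 1 (by omega)))
    (hc.1 2 (by omega)) (hc.1 3 (by omega)) (hc.1 4 (by omega)) (hγ.2 1 (by omega)) (hγ.2 2 (by omega))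
    (hγ.2 3 (by omega)) e1 e2

theorem five_all {γ : ℕ → V} (hn : MB X adj 5) (hc : Crit X adj 5 γ) (hB : ¬ A (γ 5)) {δ : ℕ → V}
    (hδ : Arc adj 5 δ) (hA : A (δ 0)) : Crit X adj 5 δ := by
  have h1 := h.odd_n1 (n := 2) hn hc hB
  obtain ⟨μ, u, w, -, -, -, -, -, -, e1, e2⟩ := h.exists_rr (n := 2) hn h1 hc hB
  have p := h.par hc.1 (h.crit_A hn hc)
  have p' := h.par hδ.1 hA
  have h8 := e1.2.2 (h.ZB_le (hc.1 2 (by omega)) (by rw [p 3 (by omega)]; decide) (h.five_r hn h1 hc e1.1 e2.1))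
  obtain ⟨g, hg⟩ := h.conj_arc (h.at_odd (n := 2) hn hc hB (h.ex_three (n := 2) hn hB) (by omega)) 4 le_rfl _ _
    ((crit_arc hn hc).shift (i := 1) le_rfl) (hδ.shift (i := 1) le_rfl) (by rw [p 5 le_rfl, p' 5 le_rfl])
  refine ⟨hδ.1, fun e => hc.2 fun t ht => (h.conj_Q_iff g).1 ?_⟩
  rw [show g • γ 5 = δ 5 from hg 4 le_rfl]
  refine ((h8 (δ 1) (δ 0) (δ 2) (h.AB (hδ.1 0 (by omega)) hA) (h.symm (hδ.1 0 (by omega))) (hδ.1 1 (by omega))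
    (hδ.2 0 (by omega)).symm).trans (sup_le e (h.ZQ hn hδ.1 (by omega) (by omega) (by omega) (by omega))))
    (h.conj_Vb (hg 0 (by omega)) (Z_le_V (hc.1 0 (by omega)) ht))

theorem five_comm {γ : ℕ → V} (hn : MB X adj 5) (hc : Crit X adj 5 γ) (hB : ¬ A (γ 5)) {δ : ℕ → V}
    (hδ : Arc adj 6 δ) (hA : A (δ 0)) (t1 : u ∈ Z (δ 0)) (t2 : u ∉ Z (δ 1)) (s1 : w ∈ Z (δ 6)) (s2 : w ∉ Z (δ 5)) :
    ⁅u, w⁆ ∈ Z (δ 3) ∧ ⁅u, w⁆ ≠ 1 := by
  have h1 := h.odd_n1 (n := 2) hn hc hB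
  have c1 := h.five_all hn hc hB (hδ.mono (by omega)) hA
  have c2 := h.five_all hn hc hB ((hδ.rev' h.symm).mono (by omega))
    ((h.par hδ.1 hA 6 le_rfl).2 (by decide))
  obtain ⟨e1, e2⟩ := h.rr (n := 2) hn h1 c1 (hδ.1 5 (by omega)) c2.2 t1 t2 s1 s2
  exact ⟨h.five_r hn h1 c1 e1.1 e2.1, fun e => e1.2.1 (e ▸ one_mem _)⟩

theorem five_sq {γ : ℕ → V} (hn : MB X adj 5) (hc : Crit X adj 5 γ) (hB : ¬ A (γ 5)) {δ : ℕ → V}
    (hδ : Arc adj 8 δ) (hA : A (δ 0)) (t1 : u ∈ Z (δ 0)) (t2 : u ∉ Z (δ 1)) (s1 : w ∈ Z (δ 8)) (s2 : w ∉ Z (δ 7)) :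
    ⁅u, w * u * w⁻¹⁆ ∈ Z (δ 3) ∧ ⁅u, w * u * w⁻¹⁆ ≠ 1 := by
  have h1 := h.odd_n1 (n := 2) hn hc hB
  have w1 : w ∉ Q (δ 3) := h.t_notQ (n := 2) hn h1 (h.five_all hn hc hB ((hδ.rev' h.symm).mono (by omega))
    ((h.par hδ.1 hA 8 le_rfl).2 (by decide))) s1 s2
  have w2 : w ∈ Q (δ 4) := hn _ _ _ (by omega) (h.near_path' hδ.1 (by omega) le_rfl) s1
  have a := fun i (hi : i < 8) => hδ.1 i hi
  have w3 : w • δ 3 = δ 3 := Qb w2 (h.symm (a 3 (by omega)))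
  have i := fun i (hi : i < 8) => h.symm (h.inv w (a i hi))
  have hε := (((((((arc_zero (w • δ 0)).cons (i 0 (by omega)) (by omega)).cons (i 1 (by omega)) fun _ e =>
    hδ.2 0 (by omega) (smul_left_cancel w e).symm).cons (w3 ▸ i 2 (by omega) : adj (δ 3) (w • δ 2)) fun _ e =>
      hδ.2 1 (by omega) (smul_left_cancel w (w3.trans e.symm))).cons (a 2 (by omega)) fun _ =>
        h.ne_of (a 3 (by omega)) (h.symm (a 2 (by omega))) (hδ.2 2 (by omega)) w3 (Qa w2) w1).cons (a 1 (by omega))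
          fun _ => hδ.2 1 (by omega)).cons (a 0 (by omega)) fun _ => hδ.2 0 (by omega))
  have := h.five_comm hn hc hB hε hA t1 t2 (h.conj_Z w t1) (h.conj_nZ rfl t2)
  exact this

theorem exists_arc (a : V) (n : ℕ) : ∃ δ, Arc adj (n + 1) δ ∧ δ 0 = a := by
  induction n with
  | zero =>
    obtain ⟨b, hb⟩ := h.nb a
    exact ⟨_, (arc_zero b).cons hb (by omega), rfl⟩
  | succ n ih =>
    obtain ⟨δ, h1, h2⟩ := ih
    obtain ⟨c, hc, hc'⟩ := h.other (h.symm (h1.1 n (by omega)))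
    exact ⟨_, h1.snoc hc hc', by rw [snoc_le _ _ (by omega), h2]⟩

theorem odd_five {γ : ℕ → V} (hn : MB X adj 5) (hc : Crit X adj 5 γ) (hB : ¬ A (γ 5)) : False := by
  obtain ⟨δ, hδ, e⟩ := h.exists_arc (γ 0) 7
  have hA : A (δ 0) := e ▸ h.crit_A hn hc
  have p := h.par hδ.1 hA
  have hA8 := (p 8 le_rfl).2 (by decide)
  obtain ⟨u, t1, t2⟩ := h.exists_ZA (hδ.1 0 (by omega)) hA
  obtain ⟨w, s1, s2⟩ := h.exists_ZA (h.symm (hδ.1 7 (by omega))) hA8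
  obtain ⟨e1, e2⟩ := h.five_sq hn hc hB hδ hA t1 t2 s1 s2
  obtain ⟨e3, -⟩ := h.five_sq hn hc hB (hδ.rev' h.symm) hA8 s1 s2 t1 t2
  refine e2 (h.infZ (h.symm (hδ.1 3 (by omega))) (hδ.1 4 (by omega)) ((p 4 (by omega)).2 (by decide))
    (hδ.2 3 (by omega)).symm e1 ?_)
  rw [← inv_mem_iff] at e3
  convert e3 using 1
  simp only [commutatorElement_def, mul_inv_rev, inv_eq_self_of (h.sqZ t1), inv_eq_self_of (h.sqZ s1),
    mul_assoc]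

section Big

variable {m : ℕ} (hn : MB X adj (m + 7))
include hn

theorem x_r (h1 : NOne X adj A) {v4 v5 v6 v7 : V} (n1 : Near adj 3 d b) (n2 : Near adj (m + 6) d v4) (a4 : adj v4 v5)
    (a5 : adj v5 v6) (a6 : adj v6 v7) (e4 : v4 ≠ v6) (e5 : v5 ≠ v7) (hA : A v6) (c3 : ¬ Z d ≤ Q v5) (e1 : r ∈ V1 b)
    (e2 : YP X adj v7 v6 r) : r ∈ Z v5 := by
  obtain ⟨x, x1, x2⟩ := SetLike.not_le_iff_exists.1 c3
  have x3 := hn _ _ _ (by omega) n2 x1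
  have x5 := Qb x3 a4
  have e3 := h.yp_conj x e2
  rw [conj_eq_of_commute (h.Vb_comm hn n1 (k := 0) (by omega) (Z_le_Vb (.refl _ _) x1) e1)] at e3
  exact h.m2 (n := m + 4) hn h1 hA a6 (h.symm a5) (h.inv' x5 a5) (h.inv x a6) e5
    (h.ne_of (h.symm a4) a5 e4 x5 (Qa x3) x2) (Tri.ne_of' e5 x5) e2 e3

variable {γ : ℕ → V} (hc : Crit X adj (m + 7) γ) (hB : ¬ A (γ (m + 7)))
include hc hB

theorem at_false (e : AT X adj (m + 5)) : False := by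
  have h1 := h.odd_n1 (n := m + 4) hn hc hB
  obtain ⟨μ, u, w, -, -, -, -, -, -, e1, e2⟩ := h.exists_rr (n := m + 4) hn h1 hc hB
  have hγ := crit_arc hn hc
  have a := hc.1
  have a6 := a (m + 6) (by omega)
  have a5 := a (m + 5) (by omega)
  have a4 := a (m + 4) (by omega)
  have hA6 := h.BA (h.symm a6) hB
  have hB5 := h.AB (h.symm a5) hA6
  have k : ∀ j, 2 ≤ j → j ≤ m + 5 → ∃ g ∈ Q (γ 2), g • γ (j + 1) = γ (j + 1) ∧ g • γ (j + 2) ≠ γ (j + 2) ∧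
      g • γ j = γ j := fun j j1 j2 => by
    obtain ⟨g, g1, g2⟩ := e.seg hγ (i := 1) (j := j + 1) (by omega) (by omega) (by omega)
    exact ⟨g, h.mem_Q (h.symm (a 1 (by omega))) (a 2 (by omega)) (hγ.2 1 (by omega)).symm (g1 2 (by omega) (by omega))
      (g1 1 le_rfl (by omega)) (g1 3 (by omega) (by omega)), g1 _ (by omega) le_rfl,
      h.ne_of (h.symm (a j (by omega))) (a (j + 1) (by omega)) (hγ.2 j (by omega)).symm (g1 _ (by omega) le_rfl)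
        (g1 _ (by omega) (by omega)) g2, g1 _ (by omega) (by omega)⟩
  obtain ⟨y, y1, y2, y3⟩ : ∃ y ∈ Z (γ 2), y ∈ Z (γ (m + 5)) ∧ y ≠ 1 := by
    by_cases e3 : ⁅u, w⁆ ∈ Z (γ 2)
    · obtain ⟨g, g1, g2, g3, -⟩ := k (m + 4) (by omega) (by omega)
      exact ⟨_, e3, by_contra fun e4 => g3 (h.fixA (n := m + 4) hn hB5 a5 (h.yp_le (n := m + 4) hn h1 (e1.2.2 e3) hB
        (h.symm a6) e2.1) e4 g2 (cZ g1 e3)), fun e => e1.2.1 (e ▸ one_mem _)⟩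
    obtain ⟨x, x1, x2⟩ := h.seg_rev e hγ (i := 2) (j := m + 7) (by omega) le_rfl (by omega)
    obtain ⟨z1, z2⟩ := h.m0 (n := m + 4) hn h1 ((h.par a (h.crit_A hn hc) 2 (by omega)).2 (by decide))
      (h.symm (a 1 (by omega))) (a 2 (by omega)) (hγ.2 1 (by omega)) e1.1 e3
      ⟨x1 2 le_rfl (by omega), x1 3 (by omega) (by omega)⟩ x2
    have z3 := e2.1.2 x ⟨x1 (m + 7) (by omega) le_rfl, x1 (m + 6) (by omega) (by omega)⟩
    obtain ⟨g, g1, g2, g3, g4⟩ := k (m + 5) (by omega) le_rfl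
    exact ⟨_, z2 g g1, h.commZ (h.symm a5) hA6 (h.ZB_le a6 hB z3) ⟨g2, g4⟩,
      fun e4 => g3 (h.fixB a6 hA6 z3 z1 g2 (comm_iff.1 e4))⟩
  obtain ⟨g, g1, g2, g3, -⟩ := k (m + 3) (by omega) (by omega)
  exact g3 (h.fixB a4 (h.BA (h.symm a4) hB5) y2 y3 g2 (cZ g1 y1))

theorem big_x : ∃ c d, adj (γ 0) c ∧ adj c d ∧ ¬ Z d ≤ Q (γ (m + 5)) := by
  by_contra e
  push Not at e
  have hγ := crit_arc hn hc
  have a := hc.1
  have hA0 := h.crit_A hn hc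
  have a6 := a (m + 6) (by omega)
  have hW : ∀ k ≤ m + 5, Vb X adj 2 (γ 0) ≤ Q (γ k) := fun k hk => by
    rcases Nat.lt_or_ge k (m + 5) with e' | e'
    · exact hn.Vb_le_Q (near_path a (Nat.zero_le k) (by omega)) (by omega)
    · obtain rfl : k = m + 5 := by omega
      exact h.W_le fun c hc' => h.V_le (h.AB hc' hA0) fun d => e c d hc'
  refine h.at_false hn hc hB (h.at_odd (n := m + 4) hn hc hB ?_ (by omega))
  by_cases e1 : Vb X adj 2 (γ 0) ≤ Q (γ (m + 6))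
  swap
  · obtain ⟨x, x1, x2⟩ := SetLike.not_le_iff_exists.1 e1
    exact (ex_of hγ (i := 0) (j := m + 6) (by omega) (by omega) (iff_true_intro (h.BA (h.symm a6) hB))
      (fix_of a (by omega) (fun k _ k2 => hW k k2 x1) (Nat.zero_le _)) x2).mono (by omega)
  have h1 := h.odd_n1 (n := m + 4) hn hc hB
  obtain ⟨μ, u, w, m1, m2, t1, t2, s1, s2, -⟩ := h.exists_rr (n := m + 4) hn h1 hc hB
  by_cases e2 : ∀ x ∈ Vb X adj 2 (γ 0), x ∈ Q (γ (m + 7)) → x ∈ Q μ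
  swap
  · push Not at e2
    obtain ⟨x, x1, x2, x3⟩ := e2
    have hδ := hγ.snoc m1 (h.crit_rev (n := m + 4) hn hc m1 m2).2
    refine (ex_of hδ (i := 0) (j := m + 8) (by omega) le_rfl (by rw [snoc_succ]; exact iff_true_intro (h.BA m1 hB))
      (fix_of hδ.1 le_rfl (fun k _ k2 => ?_) (Nat.zero_le _)) (g := x) (by rwa [snoc_succ])).mono (by omega)
    rw [snoc_le _ _ k2]
    rcases (by omega : k ≤ m + 5 ∨ k = m + 6 ∨ k = m + 7) with e | rfl | rfl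
    exacts [hW k e x1, e1 x1, x2]
  obtain ⟨s3, s4⟩ := h.s_notQ (n := m + 4) hn h1 hc m1 m2 s1 s2
  have a0 := a 0 (by omega)
  have a1 := a 1 (by omega)
  have s5 := Qb s3 (h.symm a1)
  have := h.fin_Q a0
  have := finite_of_le (hW 0 (by omega))
  refine (h.Vb_ne_bot 2 (γ 0) (h.free' (h.symm a0) ((hW 0 (by omega)).trans (Q_le_T' a0)) (h.nVb 2 _) (g := w)
    (mem_normalizer_of_conj_mem fun v hv => ?_) s5
    (h.ne_of a1 (h.symm a0) (hγ.2 0 (by omega)) s5 (Qa s3) s4))).elim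
  by_cases e3 : v ∈ Q (γ (m + 7))
  · rwa [conj_eq_of_commute (cZ (e2 v hv e3) s1).symm]
  have t3 : u ∈ Vb X adj 2 (γ 0) := Z_le_Vb (.refl _ _) t1
  have t4 := cZ (e2 _ (mul_mem hv t3) (h.two (h.symm a6) (Q_le_T' a6 (e1 hv)) (Q_le_T' a6 (e1 t3)) e3
    (h.t_notQ (n := m + 4) hn h1 hc t1 t2))) s1
  have : w * v * w⁻¹ = w * (v * u) * w⁻¹ * (w * u * w⁻¹)⁻¹ := by group
  rw [this, conj_eq_of_commute t4.symm]
  exact mul_mem (mul_mem hv t3) (inv_mem (Vb_le_Vb (.one (h.symm a0)) le_rfl (h.conj_Vb s5 (Z_le_V a0 t1))))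

theorem big_le : Z (γ 2) ≤ Z (γ (m + 4)) := by
  obtain ⟨c, d, c1, c2, c3⟩ := h.big_x hn hc hB
  have h1 := h.odd_n1 (n := m + 4) hn hc hB
  obtain ⟨μ, u, w, m1, m2, -, -, -, -, r1, r2⟩ := h.exists_rr (n := m + 4) hn h1 hc hB
  have hγ := crit_arc hn hc
  have a := hc.1
  have hA0 := h.crit_A hn hc
  have a0 := a 0 (by omega)
  have a1 := a 1 (by omega)
  have a6 := a (m + 6) (by omega)
  have a5 := a (m + 5) (by omega)
  have a4 := a (m + 4) (by omega)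
  have hA6 := h.BA (h.symm a6) hB
  have hB5 := h.AB (h.symm a5) hA6
  have hB1 := h.AB a0 hA0
  have n0 : Near adj 2 d (γ 0) := .step (h.symm c2) (.one (h.symm c1))
  have r3 := h.x_r hn h1 (n0.trans (.one a0)) ((n0.trans (near_path a (Nat.zero_le (m + 4)) (by omega))).mono
    (by omega)) a4 a5 a6 (hγ.2 _ (by omega)).symm (hγ.2 _ (by omega)).symm hA6 c3 r1.1.1 r2.1
  have h8 := r2.2.2 (h.ZB_le (h.symm a5) hB5 r3)
  have hc' : Crit X adj (m + 7) (cons d (cons c γ)) :=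
    ⟨((a.cons (h.symm c1)).cons (h.symm c2)).mono (by omega), c3⟩
  obtain ⟨μ', m3, m4⟩ := h.odd_sym (n := m + 4) hn hc' hB5
  have m5 : ¬ Z (γ (m + 6)) ≤ Q c := fun e => m4 ((Z_le_V (h.symm m3)).trans ((h8 _ _ _ hB5 (h.symm a4) a5
    (hγ.2 _ (by omega)).symm).trans (sup_le (hn _ _ _ (by omega)
      ((h.near_path' a (Nat.zero_le (m + 4)) (by omega)).trans (.one c1))) e)))
  obtain ⟨u', t1, t2⟩ := h.exists_ZA (h.symm c2) (h.BA c2 (h.AB c1 hA0))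
  obtain ⟨w', s1, s2⟩ := h.exists_ZA (h.symm a5) hA6
  obtain ⟨q1, q2⟩ := h.rr (n := m + 4) hn h1 hc' a5 m5 t1 t2 s1 s2
  have q3 := h.x_r hn h1 (.step (h.symm m1) (.step (h.symm a6) (.one (h.symm a5))))
    (((Near.one (h.symm m1)).trans (h.near_path' a (i := m + 7) (j := 2) (by omega) le_rfl)).mono (by omega))
    (h.symm a1) (h.symm a0) c1 (hγ.2 0 (by omega)) ((crit_arc hn hc').2 1 (by omega)) hA0 m2 q2.1.1 q1.1
  exact h.Z_le_of h1 (h.symm a1) (h.BA a1 hB1) (h.yp_le (n := m + 4) hn h1 h8 hB1 a1 r1.1) r1.2.1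
    (ZB_le_of h1 hB1 q3 (fun e => q1.2.1 (e ▸ one_mem _)) (h.yp_le (n := m + 4) hn h1 h8 hB5 (h.symm a4) q2.1))
    (h.ZB_le a4 hB5 r3)

theorem odd_big : False := by
  obtain ⟨c, d, c1, c2, c3⟩ := h.big_x hn hc hB
  have := h.big_le hn (γ := cons d (cons c γ)) ⟨((hc.1.cons (h.symm c1)).cons (h.symm c2)).mono (by omega), c3⟩
    (h.AB (h.symm (hc.1 (m + 5) (by omega))) (h.BA (h.symm (hc.1 (m + 6) (by omega))) hB))
  exact hc.2 (this.trans (h.ZQ hn hc.1 (i := m + 2) (by omega) le_rfl (by omega) (by omega)))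

end Big

end GC

end H27.GA
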