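import Cfsg.Agent.H27.GA4

/-! Trivalent amalgams `GA.GC`: critical distance three, and the bound `|T| ≤ 128` (`GC.card_bound`). -/

set_option autoImplicit false

namespace H27.GA

open Cfsg Subgroup MulAction H26
open scoped Pointwise commutatorElement

variable {X : Type*} [Group X] {V : Type*} [MulAction X V]

theorem comm_mul_of {y q s : X} (h : Commute y s) : ⁅y, q * s⁆ = ⁅y, q⁆ := by
  calc ⁅y, q * s⁆ = ⁅y, q⁆ * (q * ⁅y, s⁆ * q⁻¹) := by simp only [commutatorElement_def]; group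
    _ = _ := by rw [comm_iff.2 h]; group

theorem conj_eq_comm (g y : X) : g * y * g⁻¹ = ⁅g, y⁆ * y := by simp only [commutatorElement_def]; group

theorem card_le_two {H K : Subgroup X} [Finite H] (two : ∀ x ∈ H, ∀ y ∈ H, x ∉ K → y ∉ K → x * y ∈ K) :
    Nat.card H ≤ 2 * Nat.card ↥(H ⊓ K) := by
  by_cases e : H ≤ K
  · rw [inf_eq_left.2 e]; omega
  · have h1 := card_mul_relIndex K H
    rw [relIndex_eq_two_of e two, inf_comm] at h1
    omega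

/-- elements of `G_b` acting trivially on `D b / V b` -/
def HP (X : Type*) [Group X] {V : Type*} [MulAction X V] (adj : V → V → Prop) (b : V) (g : X) : Prop :=
  g • b = b ∧ ∀ y ∈ DD X adj b, ⁅g, y⁆ ∈ Vb X adj 1 b

def NV (X : Type*) [Group X] {V : Type*} [MulAction X V] (adj : V → V → Prop) (A : V → Prop) : Prop :=
  ∀ a b c, A a → adj a b → adj a c → b ≠ c → ¬ Vb X adj 1 b ≤ kQ X adj c

namespace GC

variable {adj : V → V → Prop} {A : V → Prop} (h : GC X adj A) {a b c d : V} {g x y u v w : X}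
include h

local notation "Q" => kQ X adj
local notation "T" => eT X
local notation "Z" => aZ X adj
local notation "D" => DD X adj
local notation "V1" => Vb X adj 1

theorem conj_D (g : X) (hy : y ∈ D b) : g * y * g⁻¹ ∈ D (g • b) :=
  mem_DD.2 ⟨h.conj_Q g (mem_DD.1 hy).1, fun a ha => by
    simpa using h.conj_Q g ((mem_DD.1 hy).2 (g⁻¹ • a) (by simpa using h.inv g⁻¹ ha))⟩

theorem hp_mul (e : HP X adj b x) (e' : HP X adj b y) : HP X adj b (x * y) :=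
  ⟨by rw [mul_smul, e'.1, e.1], fun d hd => by
    have : ⁅x * y, d⁆ = x * ⁅y, d⁆ * x⁻¹ * ⁅x, d⁆ := by simp only [commutatorElement_def]; group
    rw [this]
    exact mul_mem (h.conj_Vb e.1 (e'.2 d hd)) (e.2 d hd)⟩

theorem hp_conj (hg : g • b = b) (e : HP X adj b x) : HP X adj b (g * x * g⁻¹) :=
  have hg' : g⁻¹ • b = b := inv_smul_eq_iff.2 hg.symm
  ⟨by rw [mul_smul, mul_smul, hg', e.1, hg], fun d hd => by
    have : ⁅g * x * g⁻¹, d⁆ = g * ⁅x, g⁻¹ * d * g⁻¹⁻¹⁆ * g⁻¹ := by simp only [commutatorElement_def]; group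
    rw [this]
    exact h.conj_Vb hg (e.2 _ (hg' ▸ h.conj_D g⁻¹ hd))⟩

theorem nv_of {γ : ℕ → V} (hn : MB X adj 3) (hc : Crit X adj 3 γ) : NV X adj A := fun a b c hA hb hc' hbc e => by
  obtain ⟨g, g1, -, g3⟩ := h.conj2 (h.symm (hc.1 1 (by omega))) (hc.1 2 (by omega))
    ((crit_arc hn hc).2 1 le_rfl).symm hb hc' hbc (by
      rw [h.par hc.1 (h.crit_A hn hc) 2 (by omega)]; exact iff_of_true (by decide) hA)
  refine hc.2 fun t ht => (h.conj_Q_iff g).1 ?_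
  rw [show g • γ 3 = c from g3]
  exact e (h.conj_Vb g1 (Z_le_V (hc.1 0 (by omega)) ht))

variable (hn : MB X adj 3) (h1 : NOne X adj A) (h8 : V8 X adj A) (h3 : NV X adj A) (hA : A a) (hb : adj a b)
include hn h1 h8 hA hb

theorem twoV (hv : v ∈ V1 b) (hw : w ∈ V1 b) (v1 : v ∉ Z a) (w1 : w ∉ Z a) : v * w ∈ Z a := by
  have hB := h.AB hb hA
  obtain ⟨e, he, hne⟩ := h.other (h.symm hb)
  have k := fun {v : X} (hv : v ∈ V1 b) => (mem_sup_of_le_normalizer (le_normalizer_of_le_centralizer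
    fun _ hx _ hy => (h.comV (n := 0) hn (Z_le_V (h.symm he) hy) (Z_le_V hb hx)).eq)).1
      (h8 b a e hB (h.symm hb) he hne.symm hv)
  obtain ⟨u, u1, t, t1, rfl⟩ := k hv
  obtain ⟨u', u2, t', t2, rfl⟩ := k hw
  have := h.twoZ h1 (h.symm he) (h.BA he hB) t1 t2 (fun e => v1 (mul_mem u1 (h.ZB_le hb hB e)))
    fun e => w1 (mul_mem u2 (h.ZB_le hb hB e))
  rw [mul_assoc, ← mul_assoc t, (h.comV (n := 0) hn (Z_le_V (h.symm he) t1) (Z_le_V hb u2)).eq, mul_assoc]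
  exact mul_mem u1 (mul_mem u2 (h.ZB_le hb hB this))

theorem V_le_of (hv : v ∈ V1 b) (v1 : v ∉ Z a) {K : Subgroup X} (e1 : Z a ≤ K) (e2 : v ∈ K) : V1 b ≤ K :=
  (le_sup_of_two (fun _ e1 _ e2 => h.twoV hn h1 h8 hA hb e1 e2) (zpowers_le.2 hv) fun e => v1 (zpowers_le.1 e)).trans
    (sup_le e1 (zpowers_le.2 e2))

theorem commVa (hx : x ∈ T a b) (hv : v ∈ V1 b) : ⁅x, v⁆ ∈ Z a := by
  by_cases e : v ∈ Z a
  · exact h.ZB_le hb (h.AB hb hA) (h.commZ hb hA e hx)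
  · rw [comm_self_inv (h.sqV (n := 0) hn hv)]
    exact h.twoV hn h1 h8 hA hb (h.conj_Vb hx.2 hv) hv (h.conj_nZ hx.1 e) e

theorem mem_D (hv : v ∈ V1 b) (v1 : v ∉ Z a) (hy : y ∈ Q a) (e : Commute y v) : y ∈ D b := by
  have hB := h.AB hb hA
  have k := h.V_le_of hn h1 h8 hA hb hv v1 (K := centralizer {y})
    (fun u hu => mem_centralizer_singleton_iff.2 (cZ hy hu).symm) (mem_centralizer_singleton_iff.2 e.symm)
  have k2 : ∀ e, adj b e → y • e = e ∧ y ∈ Q e := fun e he => by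
    obtain ⟨u, u1, u2⟩ := h.exists_ZA (h.symm he) (h.BA he hB)
    have u3 : Commute y u := (mem_centralizer_singleton_iff.1 (k (Z_le_V (h.symm he) u1))).symm
    have := h.fixA (n := 0) hn hB he u1 u2 (Qb hy hb) u3
    exact ⟨this, h.mem_Q_of (h.symm he) (h.BA he hB) u1 u2 ⟨this, Qb hy hb⟩ u3⟩
  exact mem_DD.2 ⟨⟨Qb hy hb, fun e he => (k2 e he).1⟩, fun e he => (k2 e he).2⟩

theorem hp_t (hc : adj a c) (hv : v ∈ V1 c) : HP X adj b v :=
  ⟨Qb (V_le_Q (n := 0) hn (h.symm hc) hv) hb, fun y hy => by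
    rw [← inv_mem_iff, commutatorElement_inv]
    exact Z_le_V hb (h.commVa hn h1 h8 hA hc (Q_le_T hc ((mem_DD.1 hy).2 a (h.symm hb))) hv)⟩

include h3

omit hn h1 h8 in
theorem exists_t : ∃ t ∈ V1 b, t ∉ Z a := by
  obtain ⟨c, hc, hne⟩ := h.other hb
  obtain ⟨t, t1, t2⟩ := SetLike.not_le_iff_exists.1 (h3 a b c hA hb hc hne.symm)
  exact ⟨t, t1, fun e => t2 (h.Z_le_Q_adj hc e)⟩

theorem vq (hc : adj a c) (hbc : b ≠ c) (hv : v ∈ V1 b) (v1 : v ∉ Z a) : v ∉ Q c := fun e =>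
  h3 a b c hA hb hc hbc (h.V_le_of hn h1 h8 hA hb hv v1 (h.Z_le_Q_adj hc) e)

theorem twoD (x1 : x ∈ Q a) (x2 : x ∈ Q b) (x3 : x ∉ D b) (y1 : y ∈ Q a) (y2 : y ∈ Q b) (y3 : y ∉ D b) :
    x * y ∈ D b := by
  obtain ⟨t, t1, t2⟩ := h.exists_t h3 hA hb
  have hB := h.AB hb hA
  have e1 := h.commV hB y2 t1
  have := h1 b hB _ (h.commV hB x2 t1) _ e1 (fun e => x3 (h.mem_D hn h1 h8 hA hb t1 t2 x1 (comm_iff.1 e)))
    fun e => y3 (h.mem_D hn h1 h8 hA hb t1 t2 y1 (comm_iff.1 e))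
  refine h.mem_D hn h1 h8 hA hb t1 t2 (mul_mem x1 y1) (comm_iff.1 ?_)
  rw [comm_mul_left (h.cZB hB (Qa x2) e1), this, h.sqZ e1]

theorem tt (hc : adj a c) (hbc : b ≠ c) (hv : v ∈ V1 b) (v1 : v ∉ Z a) (hw : w ∈ V1 c) (w1 : w ∉ Z a) :
    ⁅w, v⁆ ∉ Z b := fun e =>
  v1 (h.yp_le (n := 0) hn h1 h8 (h.AB hb hA) (h.symm hb) (h.yp_of (h.AB hb hA) (h.symm hb) hv
    (Q_le_T' hb (V_le_Q (n := 0) hn (h.symm hc) hw)) (h.vq hn h1 h8 h3 hA hc hb hbc.symm hw w1) e))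

variable (hc : adj a c) (hd : adj a d) (hbc : b ≠ c) (hbd : b ≠ d) (hcd : c ≠ d)
include hc hd hbc hbd hcd

theorem t23 (hv : v ∈ V1 c) (v1 : v ∉ Z a) (hw : w ∈ V1 d) (w1 : w ∉ Z a) : v * w ∈ Q b ∧ v * w ∉ D b := by
  have v2 := V_le_Q (n := 0) hn (h.symm hc) hv
  have w2 := V_le_Q (n := 0) hn (h.symm hd) hw
  refine ⟨h.two (h.symm hb) (Q_le_T' hb v2) (Q_le_T' hb w2) (h.vq hn h1 h8 h3 hA hc hb hbc.symm hv v1)
    (h.vq hn h1 h8 h3 hA hd hb hbd.symm hw w1), fun e => ?_⟩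
  obtain ⟨t, t1, t2⟩ := h.exists_t h3 hA hb
  have e1 := comm_iff.2 (h.cD (h.AB hb hA) e t1)
  rw [comm_mul_left (cZ v2 (h.commVa hn h1 h8 hA hb (Q_le_T hb w2) t1))] at e1
  have e2 := h.cover h1 hA hb hc hd hbc hbd hcd (h.commVa hn h1 h8 hA hb (Q_le_T hb v2) t1)
    (h.tt hn h1 h8 h3 hA hb hc hbc t1 t2 hv v1) fun e => h.tt hn h1 h8 h3 hA hc hb hbc.symm hv v1 t1 t2
      (by rwa [← commutatorElement_inv, inv_mem_iff])
  refine h.tt hn h1 h8 h3 hA hd hb hbd.symm hw w1 t1 t2 ?_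
  rwa [← commutatorElement_inv, eq_inv_of_mul_eq_one_left e1, inv_inv]

theorem s_prime (y1 : y ∈ D b) (y2 : y ∈ Q d) (y3 : y ∈ D c) : y ∈ D d := by
  obtain ⟨x, x1, x2, x3⟩ : ∃ x, HP X adj b x ∧ x ∈ Q b ∧ x ∉ Q a := by
    obtain ⟨v, hv, v1⟩ := h.exists_t h3 hA hc
    obtain ⟨w, hw, w1⟩ := h.exists_t h3 hA hd
    obtain ⟨e1, e2⟩ := h.t23 hn h1 h8 h3 hA hb hc hd hbc hbd hcd hv v1 hw w1
    obtain ⟨e, e3, e4⟩ : ∃ e, adj b e ∧ v * w ∉ Q e := by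
      by_contra k
      push Not at k
      exact e2 (mem_DD.2 ⟨e1, k⟩)
    obtain ⟨k, k1, k2⟩ := h.trans e3 (h.symm hb)
    exact ⟨_, h.hp_conj k1 (h.hp_mul (h.hp_t hn h1 h8 hA hb hc hv) (h.hp_t hn h1 h8 hA hb hd hw)), h.conj_Q' k1 e1,
      by rwa [← k2, h.conj_Q_iff]⟩
  have e1 := h.conj_D x y3
  rw [h.swap hb hc hd hbc hbd hcd (Qb x2 (h.symm hb)) x1.1 x3, conj_eq_comm] at e1
  refine (mul_mem_cancel_left (V_le_D (n := 0) hn (Z_le_V hd (by_contra fun e => ?_)))).1 e1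
  exact h.vq hn h1 h8 h3 hA hb hd hbd (x1.2 y y1) e ((mul_mem_cancel_right y2).1 (mem_DD.1 e1).1)

theorem c0 (y1 : y ∈ D b) (y2 : y ∈ Q c) (y3 : y ∈ Q d) : y ∈ D c := by
  by_contra e
  have e' : y ∉ D d := fun e' => e (h.s_prime hn h1 h8 h3 hA hb hd hc hbd hbc hcd.symm y1 y2 e')
  obtain ⟨u, hu, u1⟩ := h.exists_t h3 hA hb
  obtain ⟨v, hv, v1⟩ := h.exists_t h3 hA hc
  obtain ⟨w, hw, w1⟩ := h.exists_t h3 hA hd
  have u2 := V_le_Q (n := 0) hn (h.symm hb) hu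
  have q : u * v * w ∈ Q a :=
    mul_mem (mul_mem u2 (V_le_Q (n := 0) hn (h.symm hc) hv)) (V_le_Q (n := 0) hn (h.symm hd) hw)
  have y0 := (mem_DD.1 y1).2 a (h.symm hb)
  obtain ⟨b1, b2⟩ := h.t23 hn h1 h8 h3 hA hb hc hd hbc hbd hcd hv v1 hw w1
  obtain ⟨c1, c2⟩ := h.t23 hn h1 h8 h3 hA hc hb hd hbc.symm hcd hbd hu u1 hw w1
  obtain ⟨d1, d2⟩ := h.t23 hn h1 h8 h3 hA hd hb hc hbd.symm hcd.symm hbc hu u1 hv v1
  have u3 := V_le_D (n := 0) hn hu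
  have w3 := V_le_D (n := 0) hn hw
  have v3 : ⁅u, v⁆ * v ∈ D c :=
    V_le_D (n := 0) hn (mul_mem (Z_le_V hc (h.commVa hn h1 h8 hA hc (Q_le_T hc u2) hv)) hv)
  have e0 : u * v * w = ⁅u, v⁆ * v * (u * w) := by simp only [commutatorElement_def]; group
  have c3 := h.twoD hn h1 h8 h3 hA hc q (e0 ▸ mul_mem (mem_DD.1 v3).1 c1)
    (by rwa [e0, mul_mem_cancel_left v3]) y0 y2 e
  have d3 := h.twoD hn h1 h8 h3 hA hd q (mul_mem d1 (mem_DD.1 w3).1) (by rwa [mul_mem_cancel_right w3]) y0 y3 e'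
  have := h.s_prime hn h1 h8 h3 hA hc hd hb hcd hbc.symm hbd.symm c3
    (mul_mem (mul_assoc u v w ▸ mul_mem (mem_DD.1 u3).1 b1) (mem_DD.1 y1).1) d3
  rw [mul_mem_cancel_right y1, mul_assoc, mul_mem_cancel_left u3] at this
  exact b2 this

theorem c0_le (y1 : ∀ e, adj a e → y ∈ D e) : y ∈ Z a := by
  have hB := h.AB hb hA
  obtain ⟨v, hv, v1⟩ := h.exists_t h3 hA hc
  obtain ⟨w, hw, w1⟩ := h.exists_t h3 hA hd
  have v2 := V_le_Q (n := 0) hn (h.symm hc) hv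
  have w2 := V_le_Q (n := 0) hn (h.symm hd) hw
  have v3 := h.vq hn h1 h8 h3 hA hc hb hbc.symm hv v1
  obtain ⟨g, g1, g2⟩ : ∃ g, HP X adj b g ∧ g • a ≠ a := by
    obtain ⟨e, e3, e4⟩ : ∃ e, adj b e ∧ v • e ≠ e := by
      by_contra k
      push Not at k
      exact v3 ⟨Qb v2 hb, k⟩
    obtain ⟨k, k1, k2⟩ := h.trans e3 (h.symm hb)
    refine ⟨_, h.hp_conj k1 (h.hp_t hn h1 h8 hA hb hc hv), fun e' => e4 (smul_left_cancel k ?_)⟩
    rwa [← k2, mul_smul, mul_smul, inv_smul_smul] at e'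
  let S : Set X := {s | ∃ y, (∀ e, adj a e → y ∈ D e) ∧ ∃ q ∈ Q a, s = y * y ∨ s = ⁅y, q⁆}
  have k0 : ∀ y, (∀ e, adj a e → y ∈ D e) → y ∈ Q a := fun y hy => (mem_DD.1 (hy b hb)).2 a (h.symm hb)
  have hN : closure S = ⊥ := by
    refine h.free' (h.symm hb) ((closure_le _).2 ?_) (le_normalizer_iff_cj.2 fun l hl => cj_le_iff.2
      ((closure_le _).2 ?_)) (le_normalizer_of_le_centralizer (H := zpowers g) (le_centralizer_iff.1
        ((closure_le _).2 ?_)) (mem_zpowers g)) g1.1 g2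
    · rintro _ ⟨y, y1, q, q1, rfl | rfl⟩
      · exact Q_le_T' hb (mul_mem (k0 y y1) (k0 y y1))
      · exact Q_le_T' hb (mul_mem (mul_mem (mul_mem (k0 y y1) q1) (inv_mem (k0 y y1))) (inv_mem q1))
    · rintro _ ⟨y, y1, q, q1, e⟩
      refine mem_cj.2 (subset_closure ⟨l * y * l⁻¹, fun e he => ?_, l * q * l⁻¹, h.conj_Q' hl q1, ?_⟩)
      · simpa using h.conj_D l (y1 _ (h.inv' (inv_mem hl : l⁻¹ ∈ stabilizer X a) he))
      · rcases e with rfl | rfl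
        · left; group
        · right; rw [inv_inv, conjugate_commutatorElement]
    · rintro _ ⟨y, y1, q, q1, e⟩
      refine H4.mem_centralizer_zpowers.2 (commute_of_conj_eq (x := g) ?_).eq
      have z1 := g1.2 y (y1 b hb)
      have z2 := h.cD hB (y1 b hb) z1
      rcases e with rfl | rfl
      · calc g * (y * y) * g⁻¹ = (g * y * g⁻¹) * (g * y * g⁻¹) := by group
          _ = ⁅g, y⁆ * (y * ⁅g, y⁆) * y := by rw [conj_eq_comm]; group
          _ = _ := by rw [z2.eq, ← mul_assoc, h.sqV (n := 0) hn z1, one_mul]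
      obtain ⟨r, r1, r2⟩ : ∃ r ∈ D b, ⁅y, q⁆ = ⁅y, r⁆ := by
        have y2 := h.cD (h.AB hc hA) (y1 c hc) hv
        have k : ∀ q ∈ Q a, q ∈ Q b → ∃ r ∈ D b, ⁅y, q⁆ = ⁅y, r⁆ := fun q q1 q2 => by
          by_cases e : q ∈ D b
          · exact ⟨q, e, rfl⟩
          obtain ⟨b1, b2⟩ := h.t23 hn h1 h8 h3 hA hb hc hd hbc hbd hcd hv v1 hw w1
          exact ⟨_, h.twoD hn h1 h8 h3 hA hb q1 q2 e (mul_mem v2 w2) b1 b2,
            (comm_mul_of (y2.mul_right (h.cD (h.AB hd hA) (y1 d hd) hw))).symm⟩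
        by_cases e : q ∈ Q b
        · exact k q q1 e
        · rw [← comm_mul_of (q := q) y2]
          exact k _ (mul_mem q1 v2) (h.two (h.symm hb) (Q_le_T' hb q1) (Q_le_T' hb v2) e v3)
      have z3 := g1.2 r r1
      rw [r2, conjugate_commutatorElement, conj_eq_comm, conj_eq_comm, ← (h.cD hB r1 z3).eq,
        comm_mul_of ((h.comV (n := 0) hn z1 z3).mul_left (h.cD hB (y1 b hb) z3)), ← z2.eq, ← commutatorElement_inv,
        comm_mul_of (h.cD hB r1 z1), commutatorElement_inv]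
  exact h.cen' h1 hA (k0 y y1) (fun q hq => (comm_iff.1 (mem_bot.1 (hN ▸ subset_closure
    ⟨y, y1, q, hq, .inr rfl⟩))).symm) (mem_bot.1 (hN ▸ subset_closure ⟨y, y1, 1, one_mem _, .inl rfl⟩))

theorem three_card : Nat.card (T a b) ≤ 128 := by
  have e1 := h.card_le hb le_rfl
  rw [inf_eq_right.2 (Q_le_T hb)] at e1
  have e2 := h.card_le (h.symm hb) (Q_le_T' hb)
  have := h.fin_Q hb
  have := finite_of_le (inf_le_left : Q a ⊓ Q b ≤ Q a)
  have e3 := card_le_two (H := Q a ⊓ Q b) (K := D b) fun x hx y hy x1 y1 =>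
    h.twoD hn h1 h8 h3 hA hb hx.1 hx.2 x1 hy.1 hy.2 y1
  have e0 : (Q a ⊓ Q b) ⊓ D b ≤ Q a := inf_le_left.trans inf_le_left
  have e4 := h.card_le (h.symm hc) (e0.trans (Q_le_T' hc))
  have e5 := h.card_le (h.symm hd) (H := ((Q a ⊓ Q b) ⊓ D b) ⊓ Q c) (inf_le_left.trans (e0.trans (Q_le_T' hd)))
  have := finite_of_le (h.Z_le_Q a)
  have e6 := card_le_of_le (show (((Q a ⊓ Q b) ⊓ D b) ⊓ Q c) ⊓ Q d ≤ Z a from fun y hy =>
    h.c0_le hn h1 h8 h3 hA hb hc hd hbc hbd hcd fun e he => by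
      rcases h.four hb hc hd he hbc hbd hcd with rfl | rfl | rfl
      exacts [hy.1.1.2, h.c0 hn h1 h8 h3 hA hb hc hd hbc hbd hcd hy.1.1.2 hy.1.2 hy.2,
        h.c0 hn h1 h8 h3 hA hb hd hc hbd hbc hcd.symm hy.1.1.2 hy.2 hy.1.2])
  have e7 := h.card_ZA h1 hb hA
  omega

omit hn h1 h8 h3 hc hd hbc hbd hcd in
theorem card_bound : Nat.card (T a b) ≤ 128 := by
  obtain ⟨n, γ, hn, hc⟩ := h.exists_crit hb
  have h2 := h.two_le hn hc
  have hA0 := h.crit_A hn hc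
  have p := h.par hc.1 hA0 n le_rfl
  by_cases e : A (γ n)
  · rcases (by rw [p, Nat.even_iff] at e; omega : n = 2 ∨ 4 ≤ n) with rfl | e'
    · rw [h.card_T hb (hc.1 0 (by omega)) (iff_of_true hA hA0)]
      exact h.even_two hn hc
    · obtain ⟨m, rfl⟩ := Nat.exists_eq_add_of_le' e'
      exact (h.even_big hn hc e).elim
  · rcases (by rw [p, Nat.even_iff] at e; omega : n = 3 ∨ n = 5 ∨ 7 ≤ n) with rfl | rfl | e'
    · obtain ⟨c, d, hc', hd, e1, e2, e3⟩ := h.three hb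
      exact h.three_card hn (h.odd_n1 (n := 0) hn hc e) (h.three_v8 hn hc e) (h.nv_of hn hc) hA hb hc' hd e1.symm
        e2.symm e3
    · exact (h.odd_five hn hc e).elim
    · obtain ⟨m, rfl⟩ := Nat.exists_eq_add_of_le' e'
      exact (h.odd_big hn hc e).elim

end GC

end H27.GA
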