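import Cfsg.Agent.H27.GA5

/-! Goldschmidt's bound `|P₁ ∩ P₂| ≤ 2⁷` for amalgams of index `(3, 3)` (`GA.gs_bound`). -/

set_option autoImplicit false

namespace H27.GA

open Cfsg Subgroup MulAction H26
open scoped Pointwise commutatorElement

variable {X : Type*} [Group X]

structure S3 (P T : Subgroup X) : Prop where
  fin : Finite P
  syl : IsSyl 2 T P
  six : (pCoreOf 2 P).relIndex P = 6

theorem S3.cj {P T : Subgroup X} (h : S3 P T) (x : X) : S3 (cj x P) (cj x T) :=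
  have := h.fin
  ⟨inferInstance, h.syl.cj x, by rw [← cj_pCoreOf, relIndex_cj, h.six]⟩

variable {P₁ P₂ : Subgroup X} (h1 : S3 P₁ (P₁ ⊓ P₂)) (h2 : S3 P₂ (P₁ ⊓ P₂))
  (free : ∀ N ≤ P₁ ⊓ P₂, P₁ ≤ 𝐍 N → P₂ ≤ 𝐍 N → N = ⊥)
include h1 h2

theorem cg_s3 {a b : CosetVertex P₁ P₂} (h : (cosetGraph P₁ P₂).Adj a b) : S3 (stabilizer X a) (eT X a b) :=
  cg_edge_prop (fun x _ _ h => h.cj x) h1 h2 h

theorem cg_core_le (a : CosetVertex P₁ P₂) : pCoreOf 2 (stabilizer X a) ≤ kQ X (cosetGraph P₁ P₂).Adj a :=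
  fun _ hx => ⟨pCoreOf_le _ _ hx, fun _ hb => ((cg_s3 h1 h2 hb).syl.pCoreOf_le hx).2⟩

include free

theorem cg_bip : Bip X (cosetGraph P₁ P₂).Adj fun v => v.isLeft := by
  have i : ∀ {a b} {g : X}, g ∈ stabilizer X a → (cosetGraph P₁ P₂).Adj a b → (cosetGraph P₁ P₂).Adj a (g • b) :=
    fun {a b g} hg h => by simpa [mem_stabilizer_iff.1 hg] using cg_adj_smul g h
  have k3 : ∀ {a b}, (cosetGraph P₁ P₂).Adj a b → ∃ c, ∃ t ∈ eT X a b, (cosetGraph P₁ P₂).Adj a c ∧ c ≠ b ∧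
      t • c ≠ c := fun {a b} h => by
    obtain ⟨_, s1, s2⟩ := cg_s3 h1 h2 h
    obtain ⟨g, g1, g2⟩ := SetLike.not_le_iff_exists.1 fun e : stabilizer X a ≤ eT X a b => by
      have := (six_relIndex s1 s2).2
      rw [relIndex_eq_one.2 e] at this; omega
    obtain ⟨t, t1, t2⟩ := SetLike.not_le_iff_exists.1 (six_not_le s1 s2)
    refine ⟨g • b, t, t1, i g1 h, fun e => g2 ⟨g1, e⟩, fun e => six_conj s1 s2 g1 g2 t1 t2
      ⟨(stabilizer X a).mul_mem ((stabilizer X a).mul_mem (inv_mem g1) t1.1) g1, ?_⟩⟩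
    show (g⁻¹ * t * g) • b = b
    rw [mul_smul, mul_smul, e, inv_smul_smul]
  have t2 : ∀ {a b c e}, (cosetGraph P₁ P₂).Adj a b → (cosetGraph P₁ P₂).Adj a c → (cosetGraph P₁ P₂).Adj a e →
      c ≠ b → e ≠ b → ∃ t ∈ eT X a b, t • c = e := fun {a b c e} hb hc he n1 n2 => by
    obtain ⟨_, h3, h4⟩ := cg_s3 h1 h2 hb
    obtain ⟨g, hg, rfl⟩ := cg_locally_transitive hb hc
    obtain ⟨k, hk, rfl⟩ := cg_locally_transitive hb he
    obtain ⟨t, ht, ht'⟩ := six_trans h3 h4 hg hk (fun e => n1 e.2) fun e => n2 e.2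
    exact ⟨t, ht, by rw [← mul_smul, ← inv_smul_eq_iff, ← mul_smul]; exact ht'.2⟩
  refine ⟨⟨fun h => h.symm, fun g h => cg_adj_smul g h, fun h => ?_, fun {a b c d e} hb hc hd he n1 n2 n3 => ?_,
    cg_locally_transitive, fun h => ?_, fun h N hN n1 n2 => ?_, fun h => ?_, fun h => (cg_s3 h1 h2 h).syl.isP⟩,
    fun h => ?_, fun g a => ?_, fun {a b} h => ?_⟩
  · obtain ⟨c, t, t1, c1, c2, c3⟩ := k3 h
    exact ⟨c, t • c, c1, i t1.1 c1, c2, Tri.ne_of' c2.symm t1.2, c3.symm⟩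
  · by_cases e1 : e = b
    · exact .inl e1
    obtain ⟨t, t1, rfl⟩ := t2 hb hc hd n1.symm n2.symm
    obtain ⟨s, s1, rfl⟩ := t2 hb hc he n1.symm e1
    obtain ⟨_, h3, h4⟩ := cg_s3 h1 h2 hb
    by_cases e2 : s ∈ pCoreOf 2 (stabilizer X a)
    · exact .inr (.inl (Qb (cg_core_le h1 h2 a e2) hc))
    have := two_of_relIndex (six_relIndex h3 h4).1 s s1 t⁻¹ (inv_mem t1) e2 fun e =>
      n3 (Qb (cg_core_le h1 h2 a (inv_mem_iff.1 e)) hc).symm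
    have := Qb (cg_core_le h1 h2 a this) hd
    rw [mul_smul, inv_smul_smul] at this
    exact .inr (.inr this)
  · obtain ⟨c, t, t1, c1, -, c3⟩ := k3 h
    exact ⟨t, t1.1, t1.2, fun e => c3 (Qb e c1)⟩
  · have k : ∀ (x : X) P, cj x P ≤ 𝐍 N → P ≤ 𝐍 (cj x⁻¹ N) := fun x P e => by
      rw [← cj_normalizer]; exact cj_le_iff.1 e
    obtain ⟨x, ⟨e1, e2⟩ | ⟨e1, e2⟩⟩ := cg_edge_stab h
    · rw [eT, e1, e2, ← cj_inf, le_cj_iff] at hN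
      exact cj_eq_bot_iff.1 (free _ hN (k x _ (e1 ▸ n1)) (k x _ (e2 ▸ n2)))
    · rw [eT, e1, e2, ← cj_inf, le_cj_iff, inf_comm] at hN
      exact cj_eq_bot_iff.1 (free _ hN (k x _ (e2 ▸ n2)) (k x _ (e1 ▸ n1)))
  · have := (cg_s3 h1 h2 h).fin
    exact (cg_s3 h1 h2 h).syl.finite
  · obtain ⟨x, ⟨rfl, rfl⟩ | ⟨rfl, rfl⟩⟩ := cg_adj_iff.1 h <;> simp
  · rcases a with a | a <;> rfl
  · rcases a with a | a <;> rcases b with b | b <;> obtain ⟨x, rfl⟩ := QuotientGroup.mk_surjective a <;>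
      obtain ⟨y, rfl⟩ := QuotientGroup.mk_surjective b
    · exact ⟨y * x⁻¹, by rw [cg_smul_inl]; simp⟩
    · simp at h
    · simp at h
    · exact ⟨y * x⁻¹, by rw [cg_smul_inr]; simp⟩

theorem cg_kQ (a : CosetVertex P₁ P₂) : kQ X (cosetGraph P₁ P₂).Adj a = pCoreOf 2 (stabilizer X a) := by
  obtain ⟨b, hb⟩ := cg_exists_adj a
  exact le_antisymm (le_pCoreOf ((cg_s3 h1 h2 hb).syl.isP.to_le (Q_le_T hb)) (fun _ hx => Qa hx)
    ((cg_bip h1 h2 free).nQ a)) (cg_core_le h1 h2 a)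

theorem gs_ncon (c : ¬ CharPOf 2 P₁) : Nat.card ↥(P₁ ⊓ P₂) ≤ 16 := by
  obtain ⟨g, g1, g2⟩ := SetLike.not_le_iff_exists.1 c
  have := (cg_bip h1 h2 free).card_of_not_con (cg_adj_base 1).symm (g := g)
    (by rw [← mem_stabilizer_iff, cg_stab_inl, cj_one]; exact g1.1)
    (by rw [cg_kQ h1 h2 free, cg_stab_inl, cj_one]; exact g1.2) (by rwa [cg_kQ h1 h2 free, cg_stab_inl, cj_one])
  rwa [eT, cg_stab_inl, cg_stab_inr, cj_one, cj_one, inf_comm] at this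

theorem gs_cen (c1 : CharPOf 2 P₁) (c2 : CharPOf 2 P₂) (n : P₂ ≤ 𝐂 (oz (P₁ ⊓ P₂))) : Nat.card ↥(P₁ ⊓ P₂) ≤ 128 := by
  have h : GC X (cosetGraph P₁ P₂).Adj fun v => v.isLeft := ⟨cg_bip h1 h2 free, fun a g e1 e2 => by
    obtain ⟨b, hb⟩ := cg_exists_adj a
    rw [cg_kQ h1 h2 free] at e2 ⊢
    exact cg_edge_prop (Pr := fun P _ => CharPOf 2 P) (fun x _ _ h => h.cj x) c1 c2 hb ⟨e1, e2⟩, fun h hB => by
    obtain ⟨x, ⟨rfl, rfl⟩ | ⟨rfl, rfl⟩⟩ := cg_adj_iff.1 h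
    · rw [eT, cg_stab_inl, cg_stab_inr, ← cj_inf, oz, ← cj_omegaOne_center, ← cj_centralizer]
      exact cj_mono x n
    · simp at hB, cg_exists_adj⟩
  have := h.card_bound (by simp) (cg_adj_base 1)
  rwa [eT, cg_stab_inl, cg_stab_inr, cj_one, cj_one] at this

theorem gs_bound : Nat.card ↥(P₁ ⊓ P₂) ≤ 128 := by
  have h1' : S3 P₁ (P₂ ⊓ P₁) := inf_comm P₁ P₂ ▸ h1
  have h2' : S3 P₂ (P₂ ⊓ P₁) := inf_comm P₁ P₂ ▸ h2
  have free' : ∀ N ≤ P₂ ⊓ P₁, P₂ ≤ 𝐍 N → P₁ ≤ 𝐍 N → N = ⊥ := fun N e1 e2 e3 => free N (inf_comm P₂ P₁ ▸ e1) e3 e2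
  by_cases c1 : CharPOf 2 P₁
  swap
  · exact (gs_ncon h1 h2 free c1).trans (by omega)
  by_cases c2 : CharPOf 2 P₂
  swap
  · rw [inf_comm]; exact (gs_ncon h2' h1' free' c2).trans (by omega)
  by_cases n2 : P₂ ≤ 𝐂 (oz (P₁ ⊓ P₂))
  · exact gs_cen h1 h2 free c1 c2 n2
  by_cases n1 : P₁ ≤ 𝐂 (oz (P₁ ⊓ P₂))
  · rw [inf_comm] at n1 ⊢; exact gs_cen h2' h1' free' c2 c1 n1
  have := h1.fin
  refine (card_le_of_le (inf_le_left : P₁ ⊓ P₂ ≤ P₁)).trans ?_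
  rcases s3_amalgam_iso rfl ⟨h1.fin, h1.syl, h1.six, c1, n1⟩ ⟨h2.fin, h2.syl, h2.six, c2, n2⟩ free with e | e <;>
    rw [Nat.card_congr e.1.some.toEquiv] <;> simp [Nat.card_eq_fintype_card, Fintype.card_perm, Nat.factorial]

end H27.GA
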