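import Cfsg.Agent.H8.Cd1

/-! A normal `p'`-subgroup with a non-trivial element centralizing a Sylow `p`-subgroup is not in the kernel of some
irreducible character of `p'`-degree (for S4591). -/
open H5 H6 H8 Cfsg
namespace H27.KpY2

theorem y2 {G : Type*} [Group G] [Finite G] (p : ℕ) [hp : Fact p.Prime] (P : Sylow p G) (V : Subgroup G) [V.Normal]
    (hV : ¬ p ∣ Nat.card V) (h : V ⊓ Subgroup.centralizer ((P : Subgroup G) : Set G) ≠ ⊥) :
    ∃ χ, IsIrrCharacter G χ ∧ ¬ V ≤ charKer χ ∧ ¬ p ∣ charDegree χ := by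
  classical
  haveI := Fintype.ofFinite G
  letI := irrAct V
  obtain ⟨⟨c, hc⟩, hc1⟩ := Subgroup.ne_bot_iff_exists_ne_one.1 h
  let C : Subgroup V := Subgroup.zpowers ⟨c, hc.1⟩
  letI : CommGroup C := IsCyclic.commGroup
  obtain ⟨l, hl⟩ := CommGroup.exists_apply_ne_one_of_hasEnoughRootsOfUnity C ℂ
    (a := ⟨⟨c, hc.1⟩, Subgroup.mem_zpowers _⟩)
    (fun e => hc1 (Subtype.ext (by have := congrArg (fun x : C => ((x : V) : G)) e; exact this)))
  obtain ⟨m, m1, m2⟩ := deg_eq_sum (isCharacter_ind C (isCharacter_hom l))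
  have hfix : ∀ (u : (P : Subgroup G)) (x : C), (u : G)⁻¹ * ((x : V) : G) * ((u : G)⁻¹)⁻¹ = ((x : V) : G) := by
    rintro u ⟨_, k, rfl⟩
    have : Commute ((u : G)⁻¹) (c ^ k) :=
      (show Commute ((u : G)⁻¹) c from hc.2 _ (inv_mem u.2)).zpow_right k
    show (u : G)⁻¹ * c ^ k * _ = c ^ k
    rw [this.eq]; group
  have hm : ∀ (u : (P : Subgroup G)) (θ : IrrCharacter V), m (u • θ) = m θ := fun u θ => by
    have e : ((m (u • θ) : ℕ) : ℂ) = m θ := by
      rw [← m1, ← m1, inner_ind_left _ _ θ.2.isClassFunction, inner_ind_left _ _ (u • θ).2.isClassFunction]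
      congr 1
      funext x
      change cj θ.1 (u : G)⁻¹ (x : V) = θ.1 (x : V)
      rw [cj_apply]
      exact congrArg θ.1 (Subtype.ext (hfix u x))
    exact_mod_cast e
  have hm1 : m (irrOne V) = 0 := by
    have e : ((m (irrOne V) : ℕ) : ℂ) = 0 := by
      rw [← m1, inner_ind_left _ _ (irrOne V).2.isClassFunction]
      refine (isIrrCharacter_hom l).classInner_of_ne isIrrCharacter_one fun e => hl ?_
      exact Units.ext (congrFun e _)
    exact_mod_cast e
  obtain ⟨θ, h1, h2⟩ : ∃ θ : IrrCharacter V, θ ≠ irrOne V ∧ (P : Subgroup G) ≤ inertia θ.1 := by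
    by_contra! hcon
    have h1 := H7.sum_eq_zero_of_pgroup (CharP.cast_eq_zero (ZMod p) p) P.isPGroup'
      (fun θ : IrrCharacter V => ((m θ * charDegree θ.1 : ℕ) : ZMod p))
      (fun u θ => by
        have e : charDegree (u • θ).1 = charDegree θ.1 := charDegree_congr (cj_apply_one _ _)
        rw [e, hm])
      fun θ h => by
        by_cases e : θ = irrOne V
        · rw [e, hm1]; simp
        · exact (hcon θ e fun u hu => mem_inertia.2 (by
            have := congrArg Subtype.val (h ⟨u⁻¹, inv_mem hu⟩)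
            change cj θ.1 (u⁻¹)⁻¹ = θ.1 at this
            rwa [inv_inv] at this)).elim
    rw [← Nat.cast_sum, ← m2, deg_ind (isCharacter_hom l), charDegree_of_eq (n := 1) (by simp), mul_one,
      ZMod.natCast_eq_zero_iff] at h1
    exact hV (h1.trans (Subgroup.index_dvd_card C))
  have h3 : ¬ p ∣ charDegree θ.1 := fun e => hV (e.trans θ.2.charDegree_dvd_card)
  have hVH : V ≤ V ⊔ P := le_sup_left
  have hθ' := isIrr_sOf hVH θ.2
  obtain ⟨a, ha⟩ : ∃ a, (V.subgroupOf (V ⊔ P)).index = p ^ a := by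
    obtain ⟨b, hb⟩ := P.isPGroup'.exists_card_eq
    obtain ⟨a, -, ha⟩ := (Nat.dvd_prime_pow hp.out).1 (hb ▸ (Subgroup.relIndex_sup_left (P : Subgroup G) V).dvd.trans
      (Subgroup.index_dvd_card _))
    exact ⟨a, ha⟩
  have h4 : ¬ p ∣ detOrder (sOf θ.1 (V ⊔ P)) := fun e => hV ((e.trans (detOrder_dvd_card _)).trans
    (Nat.card_congr (Subgroup.subgroupOfEquivOfLe hVH).toEquiv).dvd)
  obtain ⟨η, ⟨h5, h6, -⟩, -⟩ := exists_canonical_ext hθ' (fun g => by
      rw [cj_sOf, (sup_le (le_inertia θ.2.isClassFunction) h2 g.2 : cj θ.1 g = θ.1)])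
    (d := charDegree θ.1) θ.2.coe_charDegree.symm (by
      rw [ha]
      exact ((Nat.Prime.coprime_iff_not_dvd hp.out).2 (Nat.Prime.not_dvd_mul hp.out h4 h3)).pow_left _)
  obtain ⟨χ, h7, h8⟩ := exists_constituent_not_dvd (isCharacter_ind _ h5.isCharacter) (n := p) (by
    rw [deg_ind h5.isCharacter, charDegree_congr (χ := η) (ψ := θ.1) (h6 1)]
    exact Nat.Prime.not_dvd_mul hp.out (fun e => P.not_dvd_index
      (e.trans (Subgroup.index_dvd_of_le le_sup_right))) h3)
  refine ⟨_, χ.2, fun hk => h1 (Subtype.ext (θ.2.charKer_eq_top_iff.1 (top_le_iff.1 fun v _ => ?_))), h8⟩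
  rw [inner_ind_left _ _ χ.2.isClassFunction, Ne, classInner_eq_zero_comm] at h7
  have := apply_eq_of_mem_charKer (ker_le_of_constituent χ.2.isCharacter h5 h7
    (x := ⟨v, hVH v.2⟩) (hk v.2))
  exact θ.2.mem_charKer.2 ((h6 ⟨⟨v, hVH v.2⟩, v.2⟩).symm.trans (this.trans (h6 1)))

end H27.KpY2
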