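import Cfsg.Agent.H26.Qw0

/-! Piece P3 of S1829: the fusion of `u₂` (`H326.Qw.P3`). -/

set_option autoImplicit false

namespace H27.Qw
open Subgroup H326.Qw
universe u

variable {G : Type*} [Group G] {ψ : TT →* G} {x g h : G} {X Y W : Subgroup TT}

theorem mp_mul (a : Mp ψ Y W g) (b : Mp ψ X Y h) : Mp ψ X W (g * h) := fun t ht => by
  obtain ⟨t1, h1, e1⟩ := b t ht
  obtain ⟨t2, h2, e2⟩ := a t1 h1
  exact ⟨t2, h2, by rw [← e2, ← e1]; group⟩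

theorem mp_pow (a : Mp ψ X X g) (n : ℕ) : Mp ψ X X (g ^ n) := by
  induction n with
  | zero => exact fun t ht => ⟨t, ht, by simp⟩
  | succ n ih => rw [pow_succ]; exact mp_mul ih a

theorem mp_inv [Finite G] (a : Mp ψ X X g) : Mp ψ X X g⁻¹ := by
  have : g⁻¹ = g ^ (orderOf g - 1) := by
    rw [inv_eq_iff_mul_eq_one, ← pow_succ', Nat.sub_add_cancel (orderOf_pos g), pow_orderOf_eq_one]
  rw [this]; exact mp_pow a _

theorem mp_T (w : TT) (hw : ∀ t ∈ X, w * t * w⁻¹ ∈ Y) : Mp ψ X Y (ψ w) := fun t ht =>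
  ⟨_, hw t ht, by simp⟩

theorem cT {w t t' : TT} (e : w * t * w⁻¹ = t') : ψ w * ψ t * (ψ w)⁻¹ = ψ t' := by rw [← e]; simp

theorem cj_of {t t' : TT} (e : g * ψ t * g⁻¹ = ψ t') : Cj ψ t t' := isConj_iff.2 ⟨g, e⟩

theorem cmul {a b a' b' : TT} (h1 : g * ψ a * g⁻¹ = ψ a') (h2 : g * ψ b * g⁻¹ = ψ b') :
    g * ψ (a * b) * g⁻¹ = ψ (a' * b') := by
  rw [map_mul, map_mul, ← h1, ← h2]; group

theorem ccomp {a b c : TT} (h1 : g * ψ b * g⁻¹ = ψ c) (h2 : h * ψ a * h⁻¹ = ψ b) :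
    (g * h) * ψ a * (g * h)⁻¹ = ψ c := by
  rw [← h1, ← h2]; group

theorem cinv {a b : TT} (h1 : g * ψ a * g⁻¹ = ψ b) : g⁻¹ * ψ b * g⁻¹⁻¹ = ψ a := by rw [← h1]; group

theorem cinj (c : Rx ψ x) {a b d : TT} (h1 : g * ψ a * g⁻¹ = ψ d) (h2 : g * ψ b * g⁻¹ = ψ d) : a = b :=
  c.inj (by simpa using h1.trans h2.symm)

theorem xD (c : Rx ψ x) {y : TT} (hy : y ∈ Pr 0 4) : x * ψ y * x⁻¹ = ψ y := by
  rw [(c.xD y hy).eq]; group

theorem xw (c : Rx ψ x) {w y : TT} (hw : w ∈ [z1, v1, v1 * z1]) (hy : y ∈ Pr 0 4) : Cj ψ (w * y) (z1 * y) := by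
  have h1 := cj_of (cmul c.xz (xD c hy))
  have h2 := cj_of (cmul c.xv (xD c hy))
  simp only [List.mem_cons, List.not_mem_nil, or_false] at hw
  rcases hw with rfl | rfl | rfl
  · exact IsConj.refl _
  · exact h1.symm
  · exact (h1.trans h2).symm

theorem ne1 (c : Rx ψ x) {t : TT} (ht : t ≠ 1) : ¬ Cj ψ 1 t := fun h => ht (c.inj (by
  have := isConj_one_right.1 (show IsConj 1 (ψ t) by simpa [Cj] using h)
  simpa using this))

theorem mE (c : Rx ψ x) : Mp ψ E E x := fun t ht => by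
  have : ∀ t ∈ E, ∃ y ∈ U2, t = y ∨ t = z1 * y ∨ t = v1 * y ∨ t = v1 * z1 * y := by decide +kernel
  obtain ⟨y, hy, h⟩ := this t ht
  have hy' : y ∈ Pr 0 4 := (by decide +kernel : ∀ y ∈ U2, y ∈ Pr 0 4) y hy
  have k := xD c hy'
  have m : ∀ y ∈ U2, y ∈ E ∧ v1 * y ∈ E ∧ v1 * z1 * y ∈ E ∧ v1 * z1 * v1 * y ∈ E := by decide +kernel
  rcases h with rfl | rfl | rfl | rfl
  · exact ⟨_, (m _ hy).1, k⟩
  · exact ⟨_, (m _ hy).2.1, cmul c.xz k⟩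
  · exact ⟨_, (m _ hy).2.2.1, cmul c.xv k⟩
  · exact ⟨_, (m _ hy).2.2.2, cmul (cmul c.xv c.xz) k⟩

/-- normalisation of an element conjugating `C_T(u₂)` into `T` -/
theorem nrm (c : Rx ψ x) (f : Wk ψ) (hg : Mp ψ (centralizer {u2}) ⊤ g) :
    (Mp ψ E E g ∧ g * ψ z1 * g⁻¹ = ψ z1) ∨ (Mp ψ E E (ψ s * g) ∧ (ψ s * g) * ψ z1 * (ψ s * g)⁻¹ = ψ z1) := by
  have b : Mp ψ B B g := f.wB g fun t ht =>
    hg t (mem_centralizer_singleton_iff.2 ((by decide +kernel : ∀ t ∈ B, t * u2 = u2 * t) t ht))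
  have key : ∀ g, Mp ψ B B g → Mp ψ E E g → g * ψ z1 * g⁻¹ = ψ z1 := fun g b e => by
    obtain ⟨p, hp, e1⟩ := b u1 (by decide +kernel)
    obtain ⟨q, hq, e2⟩ := e v1 (by decide +kernel)
    have e3 := cmul (cmul e1 e2) (cmul e1 e2)
    rw [(by decide +kernel : u1 * v1 * (u1 * v1) = z1)] at e3
    rcases (by decide +kernel : ∀ p ∈ B, ∀ q ∈ E, p * q * (p * q) = 1 ∨ p * q * (p * q) = z1) p hp q hq with k | k
    · rw [k] at e3
      exact (ne1 c (by decide +kernel) (cj_of e3).symm).elim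
    · rwa [k] at e3
  rcases f.wE g fun t ht =>
    hg t (mem_centralizer_singleton_iff.2 ((by decide +kernel : ∀ t ∈ E, t * u2 = u2 * t) t ht)) with e | e
  · exact Or.inl ⟨e, key g b e⟩
  · have e' : Mp ψ E E (ψ s * g) := mp_mul (mp_T s (by decide +kernel)) e
    exact Or.inr ⟨e', key _ (mp_mul (mp_T s (by decide +kernel)) b) e'⟩

theorem caseA (c : Rx ψ x) (f : Fu ψ) (h : Cj ψ u2 z1) : PI ψ := by
  obtain ⟨g, g1, g2⟩ := f.exa u2 h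
  rcases nrm c f.toWk (g := g) (fun t ht => (g2 t ht).imp fun _ k => ⟨mem_top _, k.2⟩) with ⟨-, k⟩ | ⟨e, k⟩
  · exact absurd (cinj c g1 k) (by decide +kernel)
  have k2 : (ψ s * g) * ψ u2 * (ψ s * g)⁻¹ = ψ z2 := ccomp (cT (by decide +kernel)) g1
  generalize ψ s * g = g at e k k2
  have d : Cj ψ (z1 * u2) z := cj_of (cmul k k2)
  have cl : ∀ t ∈ E, Cj ψ t z1 → t ≠ 1 ∧ (t ∈ V1 ∨ t ∈ U2) := fun t ht hc => by
    refine ⟨fun e => ne1 c (by decide +kernel) (e ▸ hc), ?_⟩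
    by_contra hn
    obtain ⟨w, hw, y, hy, rfl⟩ := (by decide +kernel : ∀ t ∈ E, ¬ (t ∈ V1 ∨ t ∈ U2) →
      ∃ w ∈ [z1, v1, v1 * z1], ∃ y ∈ [z2, u2, u2 * z2], t = w * y) t ht hn
    refine f.ab (hc.symm.trans ((xw c hw ((by decide +kernel : ∀ y ∈ [z2, u2, u2 * z2], y ∈ Pr 0 4) y hy)).trans ?_))
    simp only [List.mem_cons, List.not_mem_nil, or_false] at hy
    rcases hy with rfl | rfl | rfl
    · exact IsConj.refl _
    · exact d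
    · exact (cj_of (cT (w := v2) (by decide +kernel))).trans d
  have a1 : Cj ψ v1 z1 := (cj_of c.xz).symm
  have a2 : Cj ψ (v1 * z1) z1 := (cj_of c.xv).symm.trans a1
  have a3 : Cj ψ z2 z1 := cj_of (cT (w := s) (by decide +kernel))
  have a4 : Cj ψ (u2 * z2) z1 := (cj_of (cT (w := v2) (by decide +kernel))).trans h
  obtain ⟨p, hp, e1⟩ := e v1 (by decide +kernel)
  obtain ⟨q, hq, e2⟩ := e z2 (by decide +kernel)
  have p1 := cl p hp ((cj_of e1).symm.trans a1)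
  have p2 := cl _ (mul_mem hp (by decide +kernel)) ((cj_of (cmul e1 k)).symm.trans a2)
  have q1 := cl q hq ((cj_of e2).symm.trans a3)
  have q2 := cl _ (mul_mem (by decide +kernel) hq) ((cj_of (cmul k2 e2)).symm.trans a4)
  have qU : q ∈ U2 := (by decide +kernel : ∀ q : TT, q ≠ 1 ∧ (q ∈ V1 ∨ q ∈ U2) →
    z2 * q ≠ 1 ∧ (z2 * q ∈ V1 ∨ z2 * q ∈ U2) → q ∈ U2) q q1 q2
  have mU : Mp ψ U2 U2 g := fun t ht => by
    rcases (by decide +kernel : ∀ t ∈ U2, t = 1 ∨ t = z2 ∨ t = u2 ∨ t = u2 * z2) t ht with rfl | rfl | rfl | rfl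
    · exact ⟨1, one_mem _, by simp⟩
    · exact ⟨q, qU, e2⟩
    · exact ⟨z2, by decide +kernel, k2⟩
    · exact ⟨_, mul_mem (by decide +kernel) qU, cmul k2 e2⟩
  have cv : ∀ g, g * ψ z1 * g⁻¹ = ψ z1 → g * ψ v1 * g⁻¹ = ψ v1 → g ∈ CV ψ := fun g h1 h2 => by
    refine mem_centralizer_iff.2 fun y hy => ?_
    rcases hy with rfl | rfl
    · exact (mul_inv_eq_iff_eq_mul.1 h1).symm
    · exact (mul_inv_eq_iff_eq_mul.1 h2).symm
  refine ⟨(cj_of (cT (w := s) (by decide +kernel))).trans h, (cj_of (cT (w := s) (by decide +kernel))).trans d, ?_⟩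
  rcases (by decide +kernel : ∀ p : TT, p ≠ 1 ∧ (p ∈ V1 ∨ p ∈ U2) → p * z1 ≠ 1 ∧ (p * z1 ∈ V1 ∨ p * z1 ∈ U2) →
    p = v1 ∨ p = v1 * z1) p p1 p2 with rfl | rfl
  · exact ⟨g, cv g k e1, k2, mU⟩
  · exact ⟨ψ u1 * g, cv _ (ccomp (cT (by decide +kernel)) k) (ccomp (cT (by decide +kernel)) e1), ccomp (cT (by decide +kernel)) k2,
      mp_mul (mp_T u1 (by decide +kernel)) mU⟩

theorem caseB [Finite G] (c : Rx ψ x) (f : Fu ψ) (h : Cj ψ u2 z) : False := by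
  obtain ⟨g, e, k, k2⟩ : ∃ g, Mp ψ E E g ∧ g * ψ z1 * g⁻¹ = ψ z1 ∧ g * ψ u2 * g⁻¹ = ψ z := by
    obtain ⟨g, g1, g2⟩ := f.exb u2 h
    rcases nrm c f.toWk g2 with ⟨e, k⟩ | ⟨e, k⟩
    · exact ⟨g, e, k, g1⟩
    · exact ⟨_, e, k, ccomp (cT (by decide +kernel)) g1⟩
  have a3 : Cj ψ z2 z1 := cj_of (cT (w := s) (by decide +kernel))
  have d : Cj ψ (z1 * u2) z1 := (cj_of (cmul k k2)).trans a3
  have cl : ∀ t ∈ E, Cj ψ t z → t ∈ [z, v1 * z2, v1 * z1 * z2, u2, u2 * z2] := fun t ht hc => by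
    by_contra hn
    rcases (by decide +kernel : ∀ t ∈ E, ¬ t ∈ [z, v1 * z2, v1 * z1 * z2, u2, u2 * z2] → t = 1 ∨ t = z2 ∨
      ∃ w ∈ [z1, v1, v1 * z1], ∃ y ∈ [1, u2, u2 * z2], t = w * y) t ht hn with rfl | rfl | ⟨w, hw, y, hy, rfl⟩
    · exact ne1 c (by decide +kernel) hc
    · exact f.ab (a3.symm.trans hc)
    refine f.ab (IsConj.trans ?_ ((xw c hw ((by decide +kernel : ∀ y ∈ [1, u2, u2 * z2], y ∈ Pr 0 4) y hy)).symm.trans hc))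
    simp only [List.mem_cons, List.not_mem_nil, or_false] at hy
    rcases hy with rfl | rfl | rfl
    · exact IsConj.refl _
    · exact d.symm
    · exact ((cj_of (cT (w := v2) (by decide +kernel))).trans d).symm
  have x1 : x * ψ z * x⁻¹ = ψ (v1 * z2) := cmul c.xz (xD c (y := z2) (by decide +kernel))
  have x2 : x * ψ (v1 * z2) * x⁻¹ = ψ (v1 * z1 * z2) := cmul c.xv (xD c (by decide +kernel))
  have b1 : Cj ψ (v1 * z2) z := (cj_of x1).symm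
  have b2 : Cj ψ (v1 * z1 * z2) z := (cj_of x2).symm.trans b1
  have b3 : Cj ψ (u2 * z2) z := (cj_of (cT (w := v2) (by decide +kernel))).trans h
  obtain ⟨r, hr, e1⟩ := e v1 (by decide +kernel)
  obtain ⟨t, ht, e2⟩ := e z2 (by decide +kernel)
  have i1 : g * ψ z * g⁻¹ = ψ (z1 * t) := cmul k e2
  have i2 := cmul e1 e2
  have i3 := cmul (cmul e1 k) e2
  have i4 := cmul k2 e2
  have j1 := cl _ (mul_mem (by decide +kernel) ht) (cj_of i1).symm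
  have j2 := cl _ (mul_mem hr ht) ((cj_of i2).symm.trans b1)
  have j3 := cl _ (mul_mem (mul_mem hr (by decide +kernel)) ht) ((cj_of i3).symm.trans b2)
  have j4 := cl _ (mul_mem (by decide +kernel) ht) ((cj_of i4).symm.trans b3)
  have β : ∀ {a a' b b' : TT}, g * ψ a * g⁻¹ = ψ a' → g * ψ b * g⁻¹ = ψ b' → v2 * a * v2⁻¹ = b →
      (g * (ψ v2 * g⁻¹)) * ψ a' * (g * (ψ v2 * g⁻¹))⁻¹ = ψ b' := fun h1 h2 h3 =>
    ccomp h2 (ccomp (cT h3) (cinv h1))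
  have γ : ∀ {a a' b b' : TT}, x * ψ a * x⁻¹ = ψ a' → x * ψ b * x⁻¹ = ψ b' → u1 * a' * u1⁻¹ = b' →
      (x⁻¹ * (ψ u1 * x)) * ψ a * (x⁻¹ * (ψ u1 * x))⁻¹ = ψ b := fun h1 h2 h3 =>
    ccomp (cinv h2) (ccomp (cT h3) h1)
  have βp : (g * (ψ v2 * g⁻¹)) * ψ (v1 * z2) * (g * (ψ v2 * g⁻¹))⁻¹ = ψ (v1 * z2) := by
    have hr' : r * z1 * t = r * t * z1 := by
      rw [mul_assoc, mul_assoc, (by decide +kernel : ∀ t ∈ E, z1 * t = t * z1) t ht]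
    rw [hr'] at j3 i3
    rcases (by decide +kernel : ∀ y ∈ [z, v1 * z2, v1 * z1 * z2, u2, u2 * z2],
      y * z1 ∈ [z, v1 * z2, v1 * z1 * z2, u2, u2 * z2] → y = v1 * z2 ∨ y * z1 = v1 * z2) _ j2 j3 with l | l
    · exact l ▸ β i2 i2 (by decide +kernel)
    · exact l ▸ β i3 i3 (by decide +kernel)
  have hq := (by decide +kernel : ∀ t ∈ E, z1 * t ∈ [z, v1 * z2, v1 * z1 * z2, u2, u2 * z2] →
    z * t ∈ [z, v1 * z2, v1 * z1 * z2, u2, u2 * z2] → z1 * t ∈ Pr 0 4 ∧ z * t ∈ Pr 0 4 ∧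
      v2 * (z * t) * v2⁻¹ = z1 * t ∧ v2 * (z1 * t) * v2⁻¹ = z * t ∧ z1 * t ≠ z ∧
      u1 * (z1 * t) * u1⁻¹ = z1 * t ∧ u1 * (z * t) * u1⁻¹ = z * t) t ht j1 j4
  obtain ⟨q1, q2, q3, q4, q5, q6, q7⟩ := hq
  set n := ψ v2 * ((g * (ψ v2 * g⁻¹)) * (x⁻¹ * (ψ u1 * x))) with hn
  have n1 : n * ψ z * n⁻¹ = ψ (v1 * z2) := ccomp (cT (by decide +kernel)) (ccomp βp (γ x1 x2 (by decide +kernel)))
  have n2 : n * ψ (v1 * z2) * n⁻¹ = ψ (z1 * t) :=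
    ccomp (cT q3) (ccomp (β k2 i4 (by decide +kernel)) (γ x2 x1 (by decide +kernel)))
  have n3 : n * ψ (z1 * t) * n⁻¹ = ψ (z * t) :=
    ccomp (cT q4) (ccomp (β i1 i1 (by decide +kernel)) (γ (xD c q1) (xD c q1) q6))
  have n4 : n * ψ (z * t) * n⁻¹ = ψ z :=
    ccomp (cT (by decide +kernel)) (ccomp (β i4 k2 (by decide +kernel)) (γ (xD c q2) (xD c q2) q7))
  have mn : Mp ψ E E n := mp_mul (mp_T v2 (by decide +kernel)) (mp_mul (mp_mul e (mp_mul (mp_T v2 (by decide +kernel)) (mp_inv e)))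
    (mp_mul (mp_inv (mE c)) (mp_mul (mp_T u1 (by decide +kernel)) (mE c))))
  clear_value n
  obtain ⟨i, m, ⟨j, rfl⟩, hm⟩ := Nat.exists_eq_two_pow_mul_odd (orderOf_pos n).ne'
  have cm := f.sE _ (mp_pow mn (2 * j + 1)) ⟨i, by rw [← pow_mul, mul_comm, ← hm, pow_orderOf_eq_one]⟩ z (by decide +kernel)
  have n5 : ∀ j : ℕ, (n * (n * (n * n))) ^ j * ψ z * ((n * (n * (n * n))) ^ j)⁻¹ = ψ z := fun j => by
    induction j with
    | zero => simp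
    | succ j ih => rw [pow_succ]; exact ccomp ih (ccomp n4 (ccomp n3 (ccomp n2 n1)))
  have n6 := ccomp (ccomp n2 n1) (n5 j)
  have e7 : n * n * (n * (n * (n * n))) ^ j = n ^ (2 * j + 1) * n ^ (2 * j + 1) := by
    rw [show n * (n * (n * n)) = n ^ 4 by simp [pow_succ, mul_assoc], ← pow_mul, ← pow_add, ← sq, ← pow_add]
    congr 1; ring
  rw [e7, cm.eq, mul_inv_cancel_right] at n6
  exact q5 (c.inj n6).symm

theorem p3 : P3.{u} := fun _ _ _ _ _ c f t =>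
  (t u2 (by decide +kernel) (by decide +kernel)).elim (caseA c.toRx f) fun h => (caseB c.toRx f h).elim

end H27.Qw
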